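import Mathlib
import Cfsg.Agent.H1.NormalRank2
import Cfsg.Agent.H1.Small3

set_option autoImplicit false

namespace Cfsg.H1

open Subgroup
open scoped commutatorElement

/-- `exists_normal_step` with the extra information `[E, G] ≤ M` -/
theorem exists_normal_step' {R : Type*} [Group R] [Finite R] {p : ℕ} [hp : Fact p.Prime]
    (hR : IsPGroup p R) (M N : Subgroup R) [M.Normal] [N.Normal] (hlt : M < N) :
    ∃ E : Subgroup R, E.Normal ∧ M ≤ E ∧ E ≤ N ∧ M.relIndex E = p ∧
      ∀ e ∈ E, ∀ g : R, ⁅g, e⁆ ∈ M := by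
  set π := QuotientGroup.mk' M with hπ
  have hπs : Function.Surjective π := QuotientGroup.mk'_surjective _
  have hker : π.ker = M := QuotientGroup.ker_mk' M
  haveI : (N.map π).Normal := Normal.map inferInstance π hπs
  have hne : N.map π ≠ ⊥ := by
    intro h
    rw [(N.map_eq_bot_iff), hker] at h
    exact not_le_of_gt hlt h
  have hq : IsPGroup p (R ⧸ M) := hR.to_quotient M
  haveI := hq.isNilpotent
  have hI := Cfsg.Agent.S0065.result (N.map π) hne
  have hIp : IsPGroup p (N.map π ⊓ center (R ⧸ M) : Subgroup (R ⧸ M)) := hq.to_subgroup _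
  obtain ⟨k, hk⟩ := hIp.exists_card_eq
  have hk0 : k ≠ 0 := by
    rintro rfl
    rw [pow_zero, card_eq_one] at hk
    exact hI hk
  obtain ⟨w, hw⟩ := exists_prime_orderOf_dvd_card' (G := (N.map π ⊓ center (R ⧸ M) :
    Subgroup (R ⧸ M))) p (by rw [hk]; exact dvd_pow_self p hk0)
  rw [← Subgroup.orderOf_coe] at hw
  haveI : (zpowers (w : R ⧸ M)).Normal := normal_zpowers_of_mem_center w.2.2
  refine ⟨(zpowers (w : R ⧸ M)).comap π, inferInstance, ?_, ?_, ?_, ?_⟩
  · exact hker.symm.le.trans (ker_le_comap π _)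
  · have h1 : (zpowers (w : R ⧸ M)).comap π ≤ (N.map π).comap π :=
      comap_mono (zpowers_le.2 w.2.1)
    rw [comap_map_eq, hker, sup_eq_left.2 hlt.le] at h1
    exact h1
  · have h1 := relIndex_ker ((zpowers (w : R ⧸ M)).comap π) π
    rw [map_comap_eq_self_of_surjective hπs, Nat.card_zpowers, hw] at h1
    rw [← h1]
    congr 1
    exact hker.symm
  · intro e he g
    have h1 : π e ∈ center (R ⧸ M) := (zpowers_le.2 w.2.2) (mem_comap.1 he)
    have h2 : ⁅g, e⁆ ∈ π.ker := by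
      rw [MonoidHom.mem_ker, map_commutatorElement, commutatorElement_eq_one_iff_mul_comm]
      exact mem_center_iff.1 h1 (π g)
    rwa [hker] at h2

theorem choose_two_dvd {p n : ℕ} (hp : p.Prime) (hn : p ^ n ≠ 2) :
    p ∣ (p ^ n).choose 2 ∧ p ^ n ∣ p * (p ^ n).choose 2 := by
  rcases n with _ | n
  · simp
  have h2 : 2 * (p ^ (n + 1)).choose 2 = p ^ (n + 1) * (p ^ (n + 1) - 1) := by
    rw [Nat.choose_two_right]
    exact Nat.mul_div_cancel' (Nat.even_mul_pred_self _).two_dvd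
  by_cases hp2 : p = 2
  · subst hp2
    rcases n with _ | n
    · simp at hn
    have h3 : (2 ^ (n + 1 + 1)).choose 2 = 2 ^ (n + 1) * (2 ^ (n + 1 + 1) - 1) := by
      have : 2 * (2 ^ (n + 1 + 1)).choose 2 = 2 * (2 ^ (n + 1) * (2 ^ (n + 1 + 1) - 1)) := by
        rw [h2, ← mul_assoc, ← pow_succ']
      exact Nat.eq_of_mul_eq_mul_left (by norm_num) this
    constructor
    · rw [h3]
      exact Dvd.dvd.mul_right (dvd_pow_self 2 (by omega)) _
    · rw [h2]
      exact dvd_mul_right _ _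
  · have hcop : Nat.Coprime (p ^ (n + 1)) 2 := by
      apply Nat.Coprime.pow_left
      exact (Nat.coprime_primes hp Nat.prime_two).2 hp2
    have h3 : p ^ (n + 1) ∣ (p ^ (n + 1)).choose 2 := by
      apply hcop.dvd_of_dvd_mul_left
      rw [h2]
      exact dvd_mul_right _ _
    exact ⟨(dvd_pow_self p (by omega)).trans h3, Dvd.dvd.mul_left h3 p⟩

/-- core computation -/
theorem alperin_core {G : Type*} [Group G] {p n : ℕ} (hp : p.Prime) (hn : p ^ n ≠ 2)
    (A N : Subgroup G) (hNC : N ≤ centralizer (A : Set G))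
    (hAe : ∀ a ∈ A, a ^ p ^ n = 1)
    (ha : ∀ x ∈ N, x ^ p ^ n = 1 → x ∈ A)
    (hb : ∀ w ∈ N, ∀ x ∈ centralizer (A : Set G), x ^ p ^ n = 1 → ⁅w, x⁆ ∈ A)
    (x : G) (hx : x ∈ centralizer (A : Set G)) (hxq : x ^ p ^ n = 1) (w : G) (hv : ⁅w, x⁆ ∈ N) :
    ⁅w, x⁆ ∈ A := by
  obtain ⟨hd1, hd2⟩ := choose_two_dvd hp hn
  have h1 : ⁅w, x⁆ * x = w * x * w⁻¹ := by rw [commutatorElement_def]; group
  generalize ⁅w, x⁆ = v at *
  generalize p ^ n = q at *
  have ht : ⁅v, x⁆ ∈ A := hb v hv x hx hxq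
  have hvC : v ∈ centralizer (A : Set G) := hNC hv
  have htx : Commute ⁅v, x⁆ x := mem_centralizer_iff.1 hx _ ht
  have htv : Commute ⁅v, x⁆ v := mem_centralizer_iff.1 hvC _ ht
  have h2 : (x * v) ^ q = 1 := by
    have e : x * v = x * (v * x) * x⁻¹ := by group
    rw [e, conj_pow, h1, conj_pow, hxq]; group
  have h3 := mul_pow_of_comm_central htx htv q
  rw [h2, hxq, one_mul] at h3
  have htq : ⁅v, x⁆ ^ q = 1 := hAe _ ht
  have hvq : v ^ q = (⁅v, x⁆ ^ (q.choose 2))⁻¹ := eq_inv_of_mul_eq_one_left h3.symm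
  have h4 : (v ^ p) ^ q = 1 := by
    rw [← pow_mul, mul_comm, pow_mul, hvq, inv_pow, ← pow_mul, mul_comm]
    obtain ⟨k, hk⟩ := hd2
    rw [hk, pow_mul, htq, one_pow, inv_one]
  have h5 : v ^ p ∈ A := ha _ (N.pow_mem hv p) h4
  have h6 : ⁅v, x⁆ ^ p = 1 := by
    rw [← commutator_pow_left_of_central htx htv p, commutatorElement_eq_one_iff_mul_comm]
    exact mem_centralizer_iff.1 hx _ h5
  have h7 : v ^ q = 1 := by
    obtain ⟨k, hk⟩ := hd1
    rw [hvq, hk, pow_mul, h6, one_pow, inv_one]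
  exact ha v hv h7

/-- S0130 (Alperin) -/
theorem alperin_omega {G : Type*} [Group G] [Finite G] {p : ℕ} [hp : Fact p.Prime]
    (hG : IsPGroup p G) (n : ℕ) (hn : p ^ n ≠ 2) (A : Subgroup G) [hAn : A.Normal]
    (hA : IsMulCommutative A) (hAe : ∀ a ∈ A, a ^ p ^ n = 1)
    (hmax : ∀ B : Subgroup G, B.Normal → IsMulCommutative B → (∀ b ∈ B, b ^ p ^ n = 1) →
      A ≤ B → B = A)
    (x : G) (hx : x ∈ Subgroup.centralizer (A : Set G)) (hxn : x ^ p ^ n = 1) : x ∈ A := by
  haveI hCn : (centralizer (A : Set G)).Normal := inferInstance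
  have hAC : A ≤ centralizer (A : Set G) := le_centralizer A
  have ha1 : ∀ x ∈ centralizer (A : Set G), x ^ p ^ n = 1 → (∀ g : G, ⁅g, x⁆ ∈ A) → x ∈ A := by
    intro x hx hxn hg
    have hzc : zpowers x ≤ centralizer (A : Set G) := zpowers_le.2 hx
    have hB := hmax (A ⊔ zpowers x) ?_ (isMulCommutative_sup A (zpowers x) hzc) ?_ le_sup_left
    · rw [← hB]
      exact le_sup_right (a := A) (mem_zpowers x)
    · constructor
      intro b hb g
      have hle : (A ⊔ zpowers x).map (MulAut.conj g).toMonoidHom ≤ A ⊔ zpowers x := by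
        rw [Subgroup.map_sup, MonoidHom.map_zpowers]
        apply sup_le
        · rintro _ ⟨a, ha, rfl⟩
          exact le_sup_left (a := A) (hAn.conj_mem a ha g)
        · rw [zpowers_le]
          have e : (MulAut.conj g).toMonoidHom x = ⁅g, x⁆ * x := by
            rw [commutatorElement_def]
            simp
          rw [e]
          exact mul_mem (le_sup_left (a := A) (hg g)) (le_sup_right (a := A) (mem_zpowers x))
      exact hle ⟨b, hb, rfl⟩
    · intro b hb
      rw [← SetLike.mem_coe, normal_mul, Set.mem_mul] at hb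
      obtain ⟨a, ha, y, hy, rfl⟩ := hb
      have hc : Commute a y := mem_centralizer_iff.1 (hzc hy) a ha
      obtain ⟨k, rfl⟩ := mem_zpowers_iff.1 hy
      rw [hc.mul_pow, hAe a ha, one_mul, ← zpow_natCast, ← zpow_mul, mul_comm, zpow_mul,
        zpow_natCast, hxn, one_zpow]
  obtain ⟨N, hN⟩ := (Set.toFinite {N : Subgroup G | N.Normal ∧ A ≤ N ∧
      N ≤ centralizer (A : Set G) ∧ (∀ x ∈ N, x ^ p ^ n = 1 → x ∈ A) ∧
      (∀ w ∈ N, ∀ x ∈ centralizer (A : Set G), x ^ p ^ n = 1 → ⁅w, x⁆ ∈ A)}).exists_maximal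
    ⟨A, hAn, le_rfl, hAC, fun x hx _ => hx, fun w hw x hx _ => by
      have : ⁅w, x⁆ = 1 := by
        rw [commutatorElement_eq_one_iff_mul_comm]
        exact mem_centralizer_iff.1 hx w hw
      rw [this]; exact A.one_mem⟩
  obtain ⟨⟨hNn, hAN, hNC, ha, hb⟩, hNmax⟩ := hN
  by_cases hNeq : N = centralizer (A : Set G)
  · exact ha x (hNeq ▸ hx) hxn
  · exfalso
    obtain ⟨E, hEn, hNE, hEC, hrel, hcomm⟩ := exists_normal_step' hG N (centralizer (A : Set G))
      (lt_of_le_of_ne hNC hNeq)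
    have hcore := alperin_core hp.out hn A N hNC hAe ha hb
    have hE : E ≤ N := by
      apply hNmax _ hNE
      refine ⟨hEn, hAN.trans hNE, hEC, ?_, ?_⟩
      · intro y hy hyn
        exact ha1 y (hEC hy) hyn (fun g => hcore y (hEC hy) hyn g (hcomm y hy g))
      · intro w hw y hy hyn
        apply hcore y hy hyn w
        have := hcomm w hw y
        rw [← commutatorElement_inv]
        exact N.inv_mem this
    rw [relIndex_eq_one.2 hE] at hrel
    exact hp.out.one_lt.ne hrel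

end Cfsg.H1
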