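import Mathlib

/-! Groups all of whose class sizes are 1 or a prime. -/

namespace Cfsg.H1

open Subgroup

variable {G : Type*} [Group G] [Finite G]

omit [Finite G] in
theorem comm_mem_of_quotient_comm (N : Subgroup G) [N.Normal] (hc : IsMulCommutative (G ⧸ N))
    (a b : G) : a * b * a⁻¹ * b⁻¹ ∈ N := by
  rw [← QuotientGroup.eq_one_iff]
  have := mul_comm' (a : G ⧸ N) (b : G ⧸ N)
  rw [QuotientGroup.mk_mul, QuotientGroup.mk_mul, QuotientGroup.mk_mul, this,
    QuotientGroup.mk_inv, QuotientGroup.mk_inv]
  group

theorem eq_of_le_of_index_eq {H K : Subgroup G} (hle : H ≤ K) (hi : H.index = K.index) :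
    H = K := by
  apply le_antisymm hle
  have h1 := relIndex_mul_index hle
  rw [hi] at h1
  have h2 : H.relIndex K = 1 := by
    have hne : K.index ≠ 0 := index_ne_zero_of_finite
    have : H.relIndex K * K.index = 1 * K.index := by rw [h1, one_mul]
    exact Nat.eq_of_mul_eq_mul_right (Nat.pos_of_ne_zero hne) this
  exact relIndex_eq_one.mp h2

omit [Finite G] in
/-- If all element centralizers are normal of index one or a prime, the class is at most two. -/
theorem ucs_two_of_centralizers_normal
    (h : ∀ x : G, (centralizer ({x} : Set G)).index = 1 ∨ ((centralizer ({x} : Set G)).index).Prime)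
    (hn : ∀ x : G, (centralizer ({x} : Set G)).Normal) :
    Subgroup.upperCentralSeries G 2 = ⊤ := by
  have key : ∀ a b x : G, a * b * a⁻¹ * b⁻¹ ∈ centralizer ({x} : Set G) := by
    intro a b x
    have := hn x
    rcases h x with h1 | h1
    · rw [index_eq_one] at h1
      rw [h1]; trivial
    · have : Fact ((Nat.card (G ⧸ centralizer ({x} : Set G))).Prime) := ⟨h1⟩
      have hc : IsCyclic (G ⧸ centralizer ({x} : Set G)) := isCyclic_of_prime_card rfl
      exact comm_mem_of_quotient_comm _ hc.isMulCommutative a b
  rw [eq_top_iff]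
  intro a _
  rw [show (2 : ℕ) = 1 + 1 from rfl, Subgroup.mem_upperCentralSeries_succ_iff]
  intro b
  rw [Subgroup.upperCentralSeries_one, mem_center_iff]
  intro x
  have := key a b x
  rw [mem_centralizer_singleton_iff] at this
  exact this.symm

/-- The non-nilpotent case. -/
theorem class_prime_nonnormal
    (h : ∀ x : G, (centralizer ({x} : Set G)).index = 1 ∨ ((centralizer ({x} : Set G)).index).Prime)
    (x : G) (hx : ¬ (centralizer ({x} : Set G)).Normal) :
    ∃ p q : ℕ, p.Prime ∧ q.Prime ∧ p ≠ q ∧ Nat.card (G ⧸ center G) = p * q ∧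
      ¬ IsMulCommutative (G ⧸ center G) := by
  have hq : (centralizer ({x} : Set G)).index.Prime := by
    rcases h x with h1 | h1
    · exfalso; apply hx
      rw [index_eq_one] at h1
      rw [h1]; infer_instance
    · exact h1
  set C := centralizer ({x} : Set G) with hC
  set q := C.index with hqdef
  haveI : Fact q.Prime := ⟨hq⟩
  set N := C.normalCore with hN
  have hNC : N ≤ C := normalCore_le C
  -- the quotient is not commutative
  have hnc : ¬ IsMulCommutative (G ⧸ N) := by
    intro hcomm
    apply hx
    refine ⟨fun c hc a => ?_⟩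
    have h1 : a * c * a⁻¹ * c⁻¹ ∈ N := comm_mem_of_quotient_comm N hcomm a c
    have h2 := C.mul_mem (hNC h1) hc
    simpa using h2
  -- an element of order q modulo N
  have hdvd : q ∣ Nat.card (G ⧸ N) := by
    have := relIndex_mul_index hNC
    change q ∣ N.index
    rw [← this]
    exact dvd_mul_left _ _
  obtain ⟨gb, hgb⟩ := exists_prime_orderOf_dvd_card' q hdvd
  obtain ⟨g0, rfl⟩ := QuotientGroup.mk_surjective gb
  have hg0N : g0 ∉ N := by
    intro hmem
    rw [(QuotientGroup.eq_one_iff g0).mpr hmem, orderOf_one] at hgb
    exact hq.one_lt.ne hgb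
  -- conjugate to get outside of C
  obtain ⟨a, ha⟩ : ∃ a : G, a * g0 * a⁻¹ ∉ C := by
    by_contra hcon
    push Not at hcon
    exact hg0N hcon
  set g := a * g0 * a⁻¹ with hg
  have hgord : orderOf (g : G ⧸ N) = q := by
    have : (g : G ⧸ N) = (a : G ⧸ N) * (g0 : G ⧸ N) * (a : G ⧸ N)⁻¹ := by
      rw [hg]; rfl
    rw [this, ← hgb]
    have hs : SemiconjBy (a : G ⧸ N) (g0 : G ⧸ N) ((a : G ⧸ N) * (g0 : G ⧸ N) * (a : G ⧸ N)⁻¹) := by
      unfold SemiconjBy; group
    exact hs.orderOf_eq.symm
  have hgq : g ^ q ∈ N := by
    rw [← QuotientGroup.eq_one_iff, QuotientGroup.mk_pow, ← hgord]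
    exact pow_orderOf_eq_one _
  -- G = ⟨g⟩ C
  have hcover : ∀ b : G, ∃ j : ℕ, (g ^ j)⁻¹ * b ∈ C := by
    let f : Fin q → G ⧸ C := fun j => ((g ^ (j : ℕ) : G) : G ⧸ C)
    have hinj : Function.Injective f := by
      -- wlog on order
      have key : ∀ i j : ℕ, i < j → j < q → ((g ^ i : G) : G ⧸ C) ≠ ((g ^ j : G) : G ⧸ C) := by
        intro i j hij hjq heq
        rw [QuotientGroup.eq] at heq
        have h1 : g ^ (j - i) ∈ C := by
          have : g ^ (j - i) = (g ^ i)⁻¹ * g ^ j := by
            rw [eq_inv_mul_iff_mul_eq, ← pow_add]; congr 1; omega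
          rw [this]; exact heq
        have hcop : Nat.Coprime (j - i) q := by
          apply Nat.Coprime.symm
          rw [hq.coprime_iff_not_dvd]
          intro hd
          have := Nat.le_of_dvd (by omega) hd
          omega
        apply ha
        have h2 : g ^ q ∈ C := hNC hgq
        have h3 : g ^ (Nat.gcd (j - i) q) ∈ C := by
          have hz : (g ^ (Nat.gcd (j - i) q) : G) = g ^ ((Nat.gcd (j - i) q : ℕ) : ℤ) := by
            rw [zpow_natCast]
          rw [hz, Nat.gcd_eq_gcd_ab, zpow_add, zpow_mul, zpow_mul, zpow_natCast, zpow_natCast]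
          exact C.mul_mem (C.zpow_mem h1 _) (C.zpow_mem h2 _)
        rw [hcop] at h3
        simpa using h3
      intro i j hij
      by_contra hne
      rcases lt_or_gt_of_ne (fun hh => hne (Fin.ext hh) : (i : ℕ) ≠ j) with hlt | hlt
      · exact key i j hlt j.2 hij
      · exact key j i hlt i.2 hij.symm
    have hbij : Function.Bijective f := by
      apply hinj.bijective_of_nat_card_le
      rw [Nat.card_fin]
      exact le_of_eq rfl
    intro b
    obtain ⟨j, hj⟩ := hbij.2 (b : G ⧸ C)
    refine ⟨j, ?_⟩
    exact QuotientGroup.eq.mp hj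
  -- the centralizer of g
  set M := (zpowers (g : G ⧸ N)).comap (QuotientGroup.mk' N) with hM
  have hCgM : centralizer ({g} : Set G) ≤ M := by
    intro c hc
    rw [mem_centralizer_singleton_iff] at hc
    obtain ⟨j, hj⟩ := hcover c
    set u := (g ^ j)⁻¹ * c with hu
    have hug : u * g = g * u := by
      rw [hu]
      have h1 : Commute g c := hc.symm
      have h2 : Commute g ((g ^ j)⁻¹ * c) :=
        (((Commute.refl g).pow_right j).inv_right).mul_right h1
      exact h2.eq.symm
    have huN : u ∈ N := by
      intro b
      obtain ⟨k, hk⟩ := hcover b⁻¹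
      set c' := (g ^ k)⁻¹ * b⁻¹ with hc'
      have hb : b = c'⁻¹ * (g ^ k)⁻¹ := by rw [hc']; group
      have h3 : Commute u (g ^ k) := (show Commute u g from hug).pow_right k
      have : b * u * b⁻¹ = c'⁻¹ * u * c' := by
        rw [hb]
        have : (g ^ k)⁻¹ * u * g ^ k = u := by
          rw [mul_assoc, h3.eq, inv_mul_cancel_left]
        calc c'⁻¹ * (g ^ k)⁻¹ * u * (c'⁻¹ * (g ^ k)⁻¹)⁻¹
            = c'⁻¹ * ((g ^ k)⁻¹ * u * g ^ k) * c' := by group
          _ = c'⁻¹ * u * c' := by rw [this]
      rw [this]
      exact C.mul_mem (C.mul_mem (C.inv_mem hk) hj) hk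
    rw [hM, mem_comap]
    have hc2 : c = g ^ j * u := by rw [hu]; group
    rw [hc2, map_mul, map_pow]
    have : (QuotientGroup.mk' N) u = 1 := (QuotientGroup.eq_one_iff u).mpr huN
    rw [this, mul_one]
    exact pow_mem (mem_zpowers _) j
  have hMidx : Nat.card (G ⧸ N) = q * M.index := by
    rw [hM, index_comap_of_surjective _ (QuotientGroup.mk'_surjective N),
      ← card_mul_index (zpowers (g : G ⧸ N)), Nat.card_zpowers, hgord]
  have hMdvd : M.index ∣ (centralizer ({g} : Set G)).index := index_dvd_of_le hCgM
  have hMne : M.index ≠ 1 := by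
    intro h1
    rw [h1, mul_one] at hMidx
    apply hx
    have : N = C := eq_of_le_of_index_eq hNC hMidx
    rw [← this]; infer_instance
  have hr : M.index.Prime := by
    rcases h g with h1 | h1
    · rw [h1] at hMdvd
      exact absurd (Nat.dvd_one.mp hMdvd) hMne
    · rcases (Nat.dvd_prime h1).mp hMdvd with h2 | h2
      · exact absurd h2 hMne
      · rw [h2]; exact h1
  have hqr : q ≠ M.index := by
    intro heq
    apply hnc
    rw [← heq, ← sq] at hMidx
    exact IsPGroup.isMulCommutative_of_card_eq_prime_sq hMidx
  -- N is the centre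
  have hNZ : N = center G := by
    apply le_antisymm
    · -- elements outside the preimage of the centre centralize N
      set Zs := (center (G ⧸ N)).comap (QuotientGroup.mk' N) with hZs
      have hout : ∀ y : G, y ∉ Zs → ∀ n ∈ N, n * y = y * n := by
        intro y hy n hn
        set D := (centralizer ({(y : G ⧸ N)} : Set (G ⧸ N))).comap (QuotientGroup.mk' N) with hD
        have hCD : centralizer ({y} : Set G) ≤ D := by
          intro c hc
          rw [mem_centralizer_singleton_iff] at hc
          rw [hD, mem_comap, mem_centralizer_singleton_iff]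
          change ((c * y : G) : G ⧸ N) = ((y * c : G) : G ⧸ N)
          rw [hc]
        have hDne : D.index ≠ 1 := by
          intro h1
          rw [index_eq_one] at h1
          apply hy
          rw [hZs, mem_comap, mem_center_iff]
          intro z
          obtain ⟨z, rfl⟩ := QuotientGroup.mk_surjective z
          have : z ∈ D := by rw [h1]; trivial
          rw [hD, mem_comap, mem_centralizer_singleton_iff] at this
          exact this
        have hdv : D.index ∣ (centralizer ({y} : Set G)).index := index_dvd_of_le hCD
        have heq : (centralizer ({y} : Set G)).index = D.index := by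
          rcases h y with h1 | h1
          · rw [h1] at hdv
            exact absurd (Nat.dvd_one.mp hdv) hDne
          · rcases (Nat.dvd_prime h1).mp hdv with h2 | h2
            · exact absurd h2 hDne
            · exact h2.symm
        have hCD' := eq_of_le_of_index_eq hCD heq
        have hnD : n ∈ D := by
          rw [hD, mem_comap]
          have : (QuotientGroup.mk' N) n = 1 := (QuotientGroup.eq_one_iff n).mpr hn
          rw [this]; exact one_mem _
        rw [← hCD', mem_centralizer_singleton_iff] at hnD
        exact hnD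
      obtain ⟨y0, hy0⟩ : ∃ y0 : G, y0 ∉ Zs := by
        by_contra hcon
        push Not at hcon
        apply hnc
        refine ⟨⟨fun u v => ?_⟩⟩
        obtain ⟨u, rfl⟩ := QuotientGroup.mk_surjective u
        have := hcon u
        rw [hZs, mem_comap, mem_center_iff] at this
        exact (this v).symm
      intro n hn
      rw [mem_center_iff]
      intro z
      by_cases hz : z ∈ Zs
      · have h1 : z * y0 ∉ Zs := by
          intro hmem
          apply hy0
          have := Zs.mul_mem (Zs.inv_mem hz) hmem
          simpa using this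
        have h2 := hout _ h1 n hn
        have h3 := hout _ hy0 n hn
        have : n * z * y0 = z * n * y0 := by
          calc n * z * y0 = n * (z * y0) := by group
            _ = z * y0 * n := h2
            _ = z * (y0 * n) := by group
            _ = z * (n * y0) := by rw [h3]
            _ = z * n * y0 := by group
        exact (mul_right_cancel this).symm
      · exact (hout z hz n hn).symm
    · intro z hz b
      rw [mem_center_iff] at hz
      have : b * z * b⁻¹ = z := by rw [hz b]; group
      rw [this, hC, mem_centralizer_singleton_iff]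
      exact (hz x).symm
  have fin : ∀ (K : Subgroup G) [K.Normal], K = center G → Nat.card (G ⧸ K) = q * M.index →
      ¬ IsMulCommutative (G ⧸ K) → ∃ p q : ℕ, p.Prime ∧ q.Prime ∧ p ≠ q ∧
      Nat.card (G ⧸ center G) = p * q ∧ ¬ IsMulCommutative (G ⧸ center G) := by
    rintro K _ rfl h1 h2
    exact ⟨q, M.index, hq, hr, hqr, h1, h2⟩
  exact fin N hNZ hMidx hnc

end Cfsg.H1
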