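import Mathlib
import Cfsg.Agent.H1.Basic
import Cfsg.Agent.H1.Coprime
import Cfsg.Agent.H1.CoprimeAb
import Cfsg.Agent.H1.CoprimeSylow
import Cfsg.Agent.H1.CoprimeSylow2

namespace Cfsg.H1

open Subgroup
open scoped commutatorElement

variable {G : Type*} [Group G]

theorem relIndex_eq_index_of_mul' (H K : Subgroup G)
    (h : ∀ g : G, ∃ x ∈ H, ∃ y ∈ K, g = x * y) : K.relIndex H = K.index := by
  classical
  have hst : MulAction.stabilizer H ((1 : G) : G ⧸ K) = K.subgroupOf H := by
    ext x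
    simp only [MulAction.mem_stabilizer_iff, mem_subgroupOf]
    change (((x : G) * 1 : G) : G ⧸ K) = _ ↔ _
    rw [mul_one, eq_comm, QuotientGroup.eq]
    simp
  have h1 := MulAction.index_stabilizer H ((1 : G) : G ⧸ K)
  rw [hst] at h1
  change K.relIndex H = _ at h1
  have h2 : MulAction.orbit H ((1 : G) : G ⧸ K) = Set.univ := by
    rw [Set.eq_univ_iff_forall]
    intro c
    obtain ⟨g, rfl⟩ := QuotientGroup.mk_surjective c
    obtain ⟨x, hx, y, hy, rfl⟩ := h g
    refine ⟨⟨x, hx⟩, ?_⟩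
    change ((x * 1 : G) : G ⧸ K) = _
    rw [mul_one, QuotientGroup.eq]
    simpa using hy
  rw [h1, h2, Set.ncard_univ, index_eq_card]

theorem relIndex_eq_of_mul {P Q R : Subgroup G} (hP : P ≤ R)
    (h : ∀ r ∈ R, ∃ x ∈ P, ∃ y ∈ Q, r = x * y) : Q.relIndex P = Q.relIndex R := by
  have := relIndex_eq_index_of_mul' (P.subgroupOf R) (Q.subgroupOf R) (by
    rintro ⟨r, hr⟩
    obtain ⟨x, hx, y, hy, e⟩ := h r hr
    have hyR : y ∈ R := by
      have : y = x⁻¹ * r := by rw [e]; group
      rw [this]; exact R.mul_mem (R.inv_mem (hP hx)) hr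
    exact ⟨⟨x, hP hx⟩, hx, ⟨y, hyR⟩, hy, Subtype.ext e⟩)
  rw [relIndex_subgroupOf hP] at this
  exact this

theorem exists_mul_of_relIndex_eq' [Finite G] {P Q R : Subgroup G} (hP : P ≤ R)
    (h : Q.relIndex P = Q.relIndex R) {r : G} (hr : r ∈ R) : ∃ x ∈ P, ∃ y ∈ Q, r = x * y := by
  have h1 : (Q.subgroupOf R).relIndex (P.subgroupOf R) = (Q.subgroupOf R).index := by
    rw [relIndex_subgroupOf hP, h]
    rfl
  obtain ⟨x, hx, y, hy, e⟩ := exists_mul_of_relIndex_eq_index _ _ h1 ⟨r, hr⟩
  exact ⟨x, hx, y, hy, congrArg Subtype.val e⟩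

theorem card_commutator_of_index_p_pgroup [Finite G] (A K : Subgroup G)
    (hAK : A ≤ normalizer (K : Set G))
    (hcop : (Nat.card A).Coprime (Nat.card K)) (p : ℕ) [hp : Fact p.Prime] (hK : IsPGroup p K)
    (hidx : (K ⊓ centralizer (A : Set G)).relIndex K = p) :
    Nat.card (⁅K, A⁆ : Subgroup G) = p := by
  have hsolv : Group.IsSolvable A ∨ Group.IsSolvable K :=
    Or.inr (by have := hK.isNilpotent; infer_instance)
  have hWK : ⁅K, A⁆ ≤ K := commutator_le_of_le_normalizer hAK
  have hWA : ⁅⁅K, A⁆, A⁆ = ⁅K, A⁆ := coprime_commutator_stable A K hAK hcop hsolv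
  have hAW : A ≤ normalizer ((⁅K, A⁆ : Subgroup G) : Set G) := normalizer_commutator_ge_right K A
  have hmul := exists_commutator_mul_centralizer A K hAK hcop hsolv
  generalize ⁅K, A⁆ = W at *
  have h1 : (W ⊓ centralizer (A : Set G)).relIndex W = p := by
    rw [← hidx, inf_relIndex_left, inf_relIndex_left]
    apply relIndex_eq_of_mul hWK
    intro r hr
    obtain ⟨n, hn, c, hc, e⟩ := hmul r hr
    exact ⟨n, hn, c, hc.2, e⟩
  have hWp : IsPGroup p W := hK.to_le hWK
  set D := W ⊓ centralizer (A : Set G) with hD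
  have hDW : D ≤ W := inf_le_left
  have hnorm : (D.subgroupOf W).Normal := by
    apply normal_of_index_eq_minFac_card
    change D.relIndex W = _
    rw [h1]
    obtain ⟨n, hn⟩ := hWp.exists_card_eq
    rw [hn]
    have hn0 : n ≠ 0 := by
      rintro rfl
      have h2 : D.relIndex W ∣ Nat.card W := relIndex_dvd_card D W
      rw [h1, hn, pow_zero] at h2
      exact hp.out.one_lt.ne' (Nat.dvd_one.1 h2)
    rw [hp.out.pow_minFac hn0]
  have hWD : ⁅W, D⁆ ≤ D := by
    rw [commutator_comm]
    apply le_normalizer_iff_commutator_le_left.1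
    exact normal_subgroupOf_iff_le_normalizer hDW |>.1 hnorm
  have hDA : ⁅D, A⁆ = ⊥ := by
    rw [commutator_eq_bot_iff_le_centralizer]
    exact inf_le_right
  have h2 : ⁅⁅D, A⁆, W⁆ = ⊥ := by rw [hDA]; exact commutator_bot_left W
  have h3 : ⁅⁅W, D⁆, A⁆ = ⊥ := by
    rw [eq_bot_iff, ← hDA]
    exact commutator_mono hWD le_rfl
  have h4 : ⁅⁅A, W⁆, D⁆ = ⊥ := commutator_commutator_eq_bot_of_rotate h3 h2
  rw [commutator_comm A W, hWA, commutator_eq_bot_iff_le_centralizer] at h4
  have hcomm : IsMulCommutative W := by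
    haveI : IsCyclic (W ⧸ D.subgroupOf W) := by
      apply isCyclic_of_prime_card (p := p)
      rw [← index_eq_card]
      exact h1
    apply (QuotientGroup.mk' (D.subgroupOf W)).isMulCommutative_of_isCyclic_of_ker_le_center
    rw [QuotientGroup.ker_mk']
    intro x hx
    rw [mem_center_iff]
    intro y
    apply Subtype.ext
    exact (mem_centralizer_iff.1 (h4 y.2) x hx).symm
  have h5 := coprime_abelian_disjoint A W hAW (coprime_of_le_right hWK hcop)
  rw [hWA, ← hD, inf_eq_left.2 hDW] at h5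
  rw [h5, relIndex_bot_left] at h1
  exact h1

/-- S0057 -/
theorem card_commutator_of_index_p [Finite G] (A K : Subgroup G)
    (hAK : A ≤ Subgroup.normalizer (K : Set G))
    (hcop : (Nat.card A).Coprime (Nat.card K)) (hsolv : Group.IsSolvable A ∨ Group.IsSolvable K)
    (p : ℕ) (hp : p.Prime) (hidx : (K ⊓ Subgroup.centralizer (A : Set G)).relIndex K = p) :
    Nat.card (⁅K, A⁆ : Subgroup G) = p := by
  haveI := Fact.mk hp
  obtain ⟨⟨P, hP⟩, -⟩ := coprime_sylow_aux A K hAK hcop hsolv p
  set P' := (P : Subgroup K).map K.subtype with hP'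
  have hP'K : P' ≤ K := map_subtype_le _
  have hP'p : IsPGroup p P' := P.2.map _
  rw [inf_relIndex_left] at hidx
  have hrel : (centralizer (A : Set G)).relIndex P' = p := by
    have h1 : (centralizer (A : Set G)).relIndex P' ≤ p := by
      rw [← hidx]
      exact relIndex_le_of_le_right hP'K (by rw [hidx]; exact hp.ne_zero)
    have h2 : (centralizer (A : Set G)).relIndex P' ∣ Nat.card P' := relIndex_dvd_card _ _
    obtain ⟨n, hn⟩ := hP'p.exists_card_eq
    rw [hn] at h2
    obtain ⟨m, -, hm⟩ := (Nat.dvd_prime_pow hp).1 h2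
    rcases m with _ | m
    · exfalso
      rw [pow_zero, relIndex_eq_one] at hm
      have h3 : P' ≤ K ⊓ centralizer (A : Set G) := le_inf hP'K hm
      have h4 := relIndex_mul_relIndex _ _ _ h3 (inf_le_left : K ⊓ centralizer (A : Set G) ≤ K)
      rw [inf_relIndex_left, hidx] at h4
      apply sylow_map_relIndex P
      rw [← hP', ← h4]
      exact dvd_mul_left _ _
    · rw [hm] at h1 ⊢
      rcases m with _ | m
      · simp
      · exfalso
        have : p ^ 1 < p ^ (m + 1 + 1) := Nat.pow_lt_pow_right hp.one_lt (by omega)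
        rw [pow_one] at this
        omega
  have hmul : ∀ k ∈ K, ∃ x ∈ P', ∃ y ∈ centralizer (A : Set G), k = x * y := fun k hk =>
    exists_mul_of_relIndex_eq' hP'K (hrel.trans hidx.symm) hk
  have heq : ⁅K, A⁆ = ⁅P', A⁆ := by
    apply le_antisymm
    · rw [commutator_le]
      intro k hk a ha
      obtain ⟨n, hn, c, hc, rfl⟩ := hmul k hk
      have hca : a * c = c * a := (mem_centralizer_iff.1 hc) a ha
      have : ⁅n * c, a⁆ = ⁅n, a⁆ := by
        rw [commutatorElement_def, commutatorElement_def]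
        have h2 : c * a * c⁻¹ = a := by rw [← hca]; group
        calc n * c * a * (n * c)⁻¹ * a⁻¹ = n * (c * a * c⁻¹) * n⁻¹ * a⁻¹ := by group
          _ = _ := by rw [h2]
      rw [this]
      exact commutator_mem_commutator hn ha
    · exact commutator_mono hP'K le_rfl
  rw [heq]
  apply card_commutator_of_index_p_pgroup A P' hP (coprime_of_le_right hP'K hcop) p hP'p
  rw [inf_relIndex_left]
  exact hrel

end Cfsg.H1
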