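import Mathlib
import Cfsg.Agent.H1.CyclicMax
import Cfsg.Agent.H1.NormalRank2
import Cfsg.Agent.H1.FrobCenter
import Cfsg.Agent.H1.Small3

set_option autoImplicit false

namespace Cfsg.H1

open Subgroup
open scoped commutatorElement

/-- S0645 -/
theorem modular_pgroup_presentation {G : Type*} [Group G] [Finite G] {p : ℕ} [hp : Fact p.Prime]
    (h2 : p ≠ 2) (n : ℕ) (hn : 3 ≤ n) (hG : Nat.card G = p ^ n) (C : Subgroup G)
    (hC : IsCyclic C) (hCi : C.index = p) (hna : ∃ x y : G, x * y ≠ y * x) :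
    ∃ a b : G, orderOf a = p ^ (n - 1) ∧ orderOf b = p ∧ b ∉ Subgroup.zpowers a ∧
      b * a * b⁻¹ = a ^ (1 + p ^ (n - 2)) := by
  have hR : IsPGroup p G := IsPGroup.of_card hG
  have hnc : ¬ IsCyclic G := by
    intro h
    obtain ⟨x, y, hxy⟩ := hna
    obtain ⟨g, hg⟩ := h.exists_generator
    obtain ⟨k, rfl⟩ := mem_zpowers_iff.1 (hg x)
    obtain ⟨l, rfl⟩ := mem_zpowers_iff.1 (hg y)
    apply hxy
    rw [← zpow_add, ← zpow_add, add_comm]
  obtain ⟨g, hg⟩ := hC.exists_generator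
  have hCz : C = zpowers (g : G) := by
    apply le_antisymm
    · intro x hx
      obtain ⟨k, hk⟩ := mem_zpowers_iff.1 (hg ⟨x, hx⟩)
      rw [mem_zpowers_iff]
      exact ⟨k, by have := congrArg Subtype.val hk; simpa using this⟩
    · exact zpowers_le.2 g.2
  set c : G := (g : G) with hc
  rw [hCz] at hCi
  have hcord : orderOf c = p ^ (n - 1) := by
    have h1 := (zpowers c).card_mul_index
    rw [hCi, hG, Nat.card_zpowers] at h1
    have h3 : p ^ n = p ^ (n - 1) * p := by rw [← pow_succ]; congr 1; omega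
    rw [h3] at h1
    exact Nat.eq_of_mul_eq_mul_right hp.out.pos h1
  have hc1 : c ≠ 1 := by
    intro h
    rw [h, orderOf_one] at hcord
    have : 1 < p ^ (n - 1) := Nat.one_lt_pow (by omega) hp.out.one_lt
    omega
  obtain ⟨z, hzord, hzC, hzc, hcomm⟩ := cyclic_max_structure h2 hR c hCi hc1
  haveI hCn : (zpowers c).Normal := normal_of_index_prime_pgroup hR _ hCi
  obtain ⟨K, hK, hKcard⟩ := omega_of_cyclic_max_aux h2 hR hnc c hCi
  -- an element of order `p` outside `C`
  obtain ⟨b₀, hb₀K, hb₀C⟩ : ∃ b₀ ∈ K, b₀ ∉ zpowers c := by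
    by_contra hcon
    push Not at hcon
    haveI : IsCyclic K := Subgroup.isCyclic_of_le (H' := zpowers c) hcon
    obtain ⟨k, hk⟩ := (inferInstance : IsCyclic K).exists_generator
    have h1 : orderOf k = p ^ 2 := by rw [orderOf_eq_card_of_forall_mem_zpowers hk, hKcard]
    have h3 : k ^ p = 1 := by
      have : (k : G) ∈ (K : Set G) := k.2
      rw [hK] at this
      exact Subtype.ext (by simpa using this)
    have h4 := orderOf_dvd_of_pow_eq_one h3
    rw [h1] at h4
    have h5 := Nat.le_of_dvd hp.out.pos h4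
    have h6 : p < p ^ 2 := by
      have := hp.out.one_lt
      nlinarith
    omega
  have hb₀p : b₀ ^ p = 1 := by
    have : b₀ ∈ (K : Set G) := hb₀K
    rw [hK] at this
    exact this
  -- the commutator `t = [b₀, c]`
  have htc : ∀ u v : G, Commute ⁅u, v⁆ u ∧ Commute ⁅u, v⁆ v := fun u v =>
    ⟨(mem_center_iff.1 ((zpowers_le.2 hzc) (hcomm u v)) u).symm,
      (mem_center_iff.1 ((zpowers_le.2 hzc) (hcomm u v)) v).symm⟩
  have ht1 : ⁅b₀, c⁆ ≠ 1 := by
    intro h
    rw [commutatorElement_eq_one_iff_mul_comm] at h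
    have htop : zpowers c ⊔ zpowers b₀ = ⊤ := by
      apply eq_of_lt_of_le_of_relIndex_prime hp.out (Z := zpowers c) _ le_top
        (by rw [relIndex_top_right, hCi])
      apply lt_of_le_of_ne le_sup_left
      intro he
      apply hb₀C
      rw [he]
      exact le_sup_right (a := zpowers c) (mem_zpowers b₀)
    haveI : IsMulCommutative (zpowers c ⊔ zpowers b₀ : Subgroup G) :=
      isMulCommutative_sup _ _ (by
        rw [zpowers_le, mem_centralizer_iff]
        intro y hy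
        obtain ⟨k, rfl⟩ := mem_zpowers_iff.1 hy
        exact ((Commute.zpow_right (show Commute b₀ c from h) k).eq).symm)
    obtain ⟨x, y, hxy⟩ := hna
    apply hxy
    have hx : x ∈ zpowers c ⊔ zpowers b₀ := by rw [htop]; exact mem_top x
    have hy : y ∈ zpowers c ⊔ zpowers b₀ := by rw [htop]; exact mem_top y
    have := (inferInstance : IsMulCommutative (zpowers c ⊔ zpowers b₀ : Subgroup G)).is_comm.comm
      ⟨x, hx⟩ ⟨y, hy⟩
    exact congrArg Subtype.val this
  set z' := c ^ (p ^ (n - 2)) with hz'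
  have hz'ord : orderOf z' = p := by
    rw [hz', orderOf_pow_of_dvd (pow_ne_zero _ hp.out.ne_zero)
      (by rw [hcord]; exact pow_dvd_pow p (by omega)), hcord]
    rw [Nat.pow_div (by omega) hp.out.pos]
    have : n - 1 - (n - 2) = 1 := by omega
    rw [this, pow_one]
  have htp : ⁅b₀, c⁆ ^ p = 1 := by
    obtain ⟨k, hk⟩ := mem_zpowers_iff.1 (hcomm b₀ c)
    rw [← hk, ← zpow_natCast, ← zpow_mul, mul_comm, zpow_mul, zpow_natCast, ← hzord,
      pow_orderOf_eq_one, one_zpow]
  have htC : ⁅b₀, c⁆ ∈ zpowers c := (zpowers_le.2 hzC) (hcomm b₀ c)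
  have htz' : ⁅b₀, c⁆ ∈ zpowers z' := by
    have hz'C : z' ∈ zpowers c := pow_mem (mem_zpowers c) _
    have h3 := mem_zpowers_of_pow_eq_one_of_isCyclic (α := zpowers c) (v := ⟨z', hz'C⟩)
      (w := ⟨_, htC⟩) (r := p) (by rw [Subgroup.orderOf_mk, hz'ord]) hp.out.pos
      (Subtype.ext (by simpa using htp))
    obtain ⟨k, hk⟩ := mem_zpowers_iff.1 h3
    rw [mem_zpowers_iff]
    exact ⟨k, by have := congrArg Subtype.val hk; simpa using this⟩
  rw [← mem_powers_iff_mem_zpowers] at htz'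
  obtain ⟨k, hk⟩ := htz'
  have hk' : z' ^ k = ⁅b₀, c⁆ := hk
  have hpk : ¬ p ∣ k := by
    rintro ⟨l, rfl⟩
    apply ht1
    rw [← hk', pow_mul, ← hz'ord, pow_orderOf_eq_one, one_pow]
  have hcop : Nat.Coprime k p := ((Nat.Prime.coprime_iff_not_dvd hp.out).2 hpk).symm
  obtain ⟨j, -, hj⟩ := Nat.exists_mul_mod_eq_one_of_coprime hcop hp.out.one_lt
  have hbc : ⁅b₀ ^ j, c⁆ = z' := by
    rw [commutator_pow_left_of_central (htc b₀ c).2 (htc b₀ c).1, ← hk', ← pow_mul]
    conv_rhs => rw [← pow_one z']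
    rw [pow_eq_pow_iff_modEq, hz'ord]
    change k * j % p = 1 % p
    rw [hj, Nat.mod_eq_of_lt hp.out.one_lt]
  have hz'1 : z' ≠ 1 := by
    intro h
    rw [h, orderOf_one] at hz'ord
    exact hp.out.one_lt.ne hz'ord
  refine ⟨c, b₀ ^ j, hcord, ?_, ?_, ?_⟩
  · apply orderOf_eq_prime
    · rw [← pow_mul, mul_comm, pow_mul, hb₀p, one_pow]
    · intro h
      apply hz'1
      rw [← hbc, h, commutatorElement_one_left]
  · intro h
    apply hz'1
    rw [← hbc, commutatorElement_eq_one_iff_mul_comm]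
    obtain ⟨l, hl⟩ := mem_zpowers_iff.1 h
    rw [← hl, ← zpow_add_one, ← zpow_one_add, add_comm]
  · have e : b₀ ^ j * c * (b₀ ^ j)⁻¹ = ⁅b₀ ^ j, c⁆ * c := by
      rw [commutatorElement_def]; group
    rw [e, hbc, hz', ← pow_succ, add_comm]

end Cfsg.H1
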