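import Mathlib
import Cfsg.Agent.H1.Fit
import Cfsg.Agent.H1.CoprimeSylow2

set_option autoImplicit false

namespace Cfsg.H1

open Subgroup
open scoped Pointwise
open Cfsg.Agent.Lib.Helper22

variable {G : Type*} [Group G]

/-- If `Φ(G) ≤ N ⊴ G` and `N/Φ(G)` is nilpotent then `N` is nilpotent. -/
theorem isNilpotent_of_map_frattini [Finite G] (N : Subgroup G) [hN : N.Normal]
    (hΦ : frattini G ≤ N)
    (h : Group.IsNilpotent (N.map (QuotientGroup.mk' (frattini G)))) : Group.IsNilpotent N := by
  have q := (Group.isNilpotent_of_finite_tfae (G := N)).out 0 3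
  rw [q]; clear q
  intro p hp P
  let f := QuotientGroup.mk' (frattini G)
  have hf : Function.Surjective f := QuotientGroup.mk'_surjective _
  have hNbar : (N.map f).Normal := hN.map f hf
  let Pbar : Sylow p (N.map f) := P.mapSurjective (f.subgroupMap_surjective N)
  have hn : (Pbar : Subgroup (N.map f)).Normal := inferInstance
  have hc : (Pbar : Subgroup (N.map f)).Characteristic := Sylow.characteristic_of_normal Pbar hn
  have hn2 : ((Pbar : Subgroup (N.map f)).map (N.map f).subtype).Normal :=
    ConjAct.normal_of_characteristic_of_normal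
  have heq : (Pbar : Subgroup (N.map f)).map (N.map f).subtype =
      ((P : Subgroup N).map N.subtype).map f := by
    change ((P : Subgroup N).map (f.subgroupMap N)).map (N.map f).subtype = _
    rw [map_map, map_map]
    rfl
  rw [heq] at hn2
  have hR : (((P : Subgroup N).map N.subtype) ⊔ frattini G).Normal := by
    have := hn2.comap f
    rwa [comap_map_eq, QuotientGroup.ker_mk'] at this
  have hPR : (P : Subgroup N).map N.subtype ≤ ((P : Subgroup N).map N.subtype) ⊔ frattini G :=
    le_sup_left
  have hRN : ((P : Subgroup N).map N.subtype) ⊔ frattini G ≤ N :=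
    sup_le (map_subtype_le _) hΦ
  obtain ⟨S, hS⟩ := exists_sylow_map_eq hPR (P.2.map _) (by
    intro hdvd
    apply sylow_map_relIndex P
    rw [← relIndex_mul_relIndex _ _ _ hPR hRN]
    exact hdvd.mul_right _)
  have h1 := Sylow.normalizer_sup_eq_top S
  rw [hS, ← sup_assoc, sup_eq_left.2 (le_normalizer)] at h1
  have h2 := frattini_nongenerating h1
  exact (normalizer_eq_top_iff.1 h2).of_map_subtype


/-- S0011 -/
theorem isNilpotent_of_frattini_quotient [Finite G]
    (h : Group.IsNilpotent (G ⧸ frattini G)) : Group.IsNilpotent G := by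
  rw [← Group.isNilpotent_top]
  apply isNilpotent_of_map_frattini ⊤ le_top
  rw [map_top_of_surjective _ (QuotientGroup.mk'_surjective _), Group.isNilpotent_top]
  exact h

/-- S0070 -/
theorem fitting_frattini_quotient [Finite G] :
    Cfsg.fittingSubgroup (G ⧸ frattini G) =
      (Cfsg.fittingSubgroup G).map (QuotientGroup.mk' (frattini G)) := by
  have hf := QuotientGroup.mk'_surjective (frattini G)
  apply le_antisymm
  · have hn : (Cfsg.fittingSubgroup (G ⧸ frattini G)).Normal := fittingSubgroup_normal
    have hnil : Group.IsNilpotent (Cfsg.fittingSubgroup (G ⧸ frattini G)) :=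
      fittingSubgroup_isNilpotent
    have hN : ((Cfsg.fittingSubgroup (G ⧸ frattini G)).comap
        (QuotientGroup.mk' (frattini G))).Normal := hn.comap _
    have h1 : Group.IsNilpotent ((Cfsg.fittingSubgroup (G ⧸ frattini G)).comap
        (QuotientGroup.mk' (frattini G))) := by
      apply isNilpotent_of_map_frattini _
        ((QuotientGroup.ker_mk' (frattini G)).symm.le.trans (ker_le_comap _ _))
      rw [map_comap_eq_self_of_surjective hf]
      exact hnil
    have h2 := le_fittingSubgroup _ hN h1
    have h3 := map_mono (f := QuotientGroup.mk' (frattini G)) h2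
    rwa [map_comap_eq_self_of_surjective hf] at h3
  · have hn : (Cfsg.fittingSubgroup G).Normal := fittingSubgroup_normal
    have hnil : Group.IsNilpotent (Cfsg.fittingSubgroup G) := fittingSubgroup_isNilpotent
    apply le_fittingSubgroup _ (hn.map _ hf)
    exact Group.nilpotent_of_surjective _
      ((QuotientGroup.mk' (frattini G)).subgroupMap_surjective (Cfsg.fittingSubgroup G))

end Cfsg.H1
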