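import Mathlib
import Cfsg.Prelude.Def_Transfer
import Cfsg.Agent.H1.MinNonPNil
import Cfsg.Agent.H1.Small4
import Cfsg.Agent.H1.SZ

set_option autoImplicit false

namespace Cfsg.H1

open Subgroup Cfsg.Agent.H12
open scoped Pointwise commutatorElement

universe u

variable {G : Type u} [Group G]

/-- A Sylow subgroup controlling fusion of its own elements has a normal complement. -/
theorem npc_of_controls_fusion [Finite G] {p : ℕ} [Fact p.Prime] (P : Sylow p G)
    (h : ∀ x ∈ P, ∀ y ∈ P, (∃ g : G, g * x * g⁻¹ = y) → ∃ z ∈ P, z * x * z⁻¹ = y) :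
    Cfsg.HasNormalPComplement p G := by
  rw [hasNormalPComplement_iff_sylow P, frobenius_npc P]
  suffices H : ∀ n : ℕ, ∀ Q : Subgroup G, Q ≤ (P : Subgroup G) → Nat.card Q = n →
      ∀ g ∈ normalizer (Q : Set G), Nat.Coprime (orderOf g) p → g ∈ centralizer (Q : Set G) from
    fun Q hQ => H _ Q hQ rfl
  intro n
  induction n using Nat.strong_induction_on with
  | _ n ih =>
    intro Q hQ hn g hg hgo
    by_cases hQb : Q = ⊥
    · subst hQb
      rw [mem_centralizer_iff]
      intro q hq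
      have : q = 1 := hq
      rw [this]; simp
    have hnil : Group.IsNilpotent (P : Subgroup G) := P.2.isNilpotent
    obtain ⟨m, hm⟩ := (isNilpotent_iff_lowerCentralSeries (P : Subgroup G)).1 hnil
    have hex : ∃ i, ¬ Q ≤ (P : Subgroup G).lowerCentralSeries i :=
      ⟨m, by rw [hm]; intro h; exact hQb (eq_bot_iff.2 h)⟩
    classical
    have hi0 : Nat.find hex ≠ 0 := by
      intro h0
      have := Nat.find_spec hex
      rw [h0] at this
      exact this hQ
    obtain ⟨j, hj⟩ : ∃ j, Nat.find hex = j + 1 := ⟨Nat.find hex - 1, by omega⟩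
    have hj1 : Q ≤ (P : Subgroup G).lowerCentralSeries j := by
      by_contra hcon
      exact Nat.find_min hex (by omega) hcon
    have hj2 : ¬ Q ≤ (P : Subgroup G).lowerCentralSeries (j + 1) := hj ▸ Nat.find_spec hex
    have hA : zpowers g ≤ normalizer (Q : Set G) := zpowers_le.2 hg
    have hW1 : ⁅Q, zpowers g⁆ ≤ Q := commutator_le_of_le_normalizer hA
    have hW2 : ⁅Q, zpowers g⁆ ≤ (P : Subgroup G).lowerCentralSeries (j + 1) := by
      rw [commutator_le]
      intro x hx a ha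
      have hax : a * x * a⁻¹ ∈ Q := (mem_normalizer_iff.1 (hA ha) x).1 hx
      obtain ⟨z, hz, hzx⟩ := h x (hQ hx) _ (hQ hax) ⟨a, rfl⟩
      have : ⁅x, a⁆ = ⁅x, z⁆ := by
        rw [commutatorElement_def, commutatorElement_def]
        calc x * a * x⁻¹ * a⁻¹ = x * (a * x * a⁻¹)⁻¹ := by group
          _ = x * (z * x * z⁻¹)⁻¹ := by rw [hzx]
          _ = x * z * x⁻¹ * z⁻¹ := by group
      rw [this, Subgroup.lowerCentralSeries_succ]
      exact commutator_mem_commutator (hj1 hx) hz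
    have hlt : ⁅Q, zpowers g⁆ < Q :=
      lt_of_le_of_ne hW1 (fun e => hj2 (e ▸ hW2))
    have hgW : g ∈ normalizer ((⁅Q, zpowers g⁆ : Subgroup G) : Set G) :=
      normalizer_commutator_ge_right _ _ (mem_zpowers g)
    have h1 := ih _ (hn ▸ card_lt_of_lt hlt) _ (hW1.trans hQ) rfl g hgW hgo
    have h2 : ⁅⁅Q, zpowers g⁆, zpowers g⁆ = ⊥ := by
      rw [commutator_eq_bot_iff_le_centralizer, le_centralizer_iff]
      exact zpowers_le.2 h1
    obtain ⟨k, hk⟩ := IsPGroup.iff_card.1 (P.2.to_le hQ)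
    have hcop : (Nat.card (zpowers g)).Coprime (Nat.card Q) := by
      rw [Nat.card_zpowers, hk]; exact Nat.Coprime.pow_right k hgo
    have h3 := coprime_commutator_stable (zpowers g) Q hA hcop (Or.inl inferInstance)
    rw [h2] at h3
    have h4 := h3.symm
    rw [commutator_eq_bot_iff_le_centralizer, le_centralizer_iff] at h4
    exact h4 (mem_zpowers g)

theorem sylow_normal_of_nilpotent {H : Type*} [Group H] [Finite H] [hn : Group.IsNilpotent H]
    {p : ℕ} [Fact p.Prime] (P : Sylow p H) : (P : Subgroup H).Normal := by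
  have q := (Group.isNilpotent_of_finite_tfae (G := H)).out 0 3
  exact (q.1 hn) p inferInstance P

/-- for a nilpotent Hall subgroup controlling its own fusion, `G` is `p`-nilpotent for `p ∣ |H|`. -/
theorem npc_of_nilpotent_hall_controls [Finite G] (H : Subgroup G) (hH : Group.IsNilpotent H)
    (hHall : Nat.Coprime (Nat.card H) H.index)
    (hfus : ∀ x ∈ H, ∀ y ∈ H, (∃ g : G, g * x * g⁻¹ = y) → ∃ h ∈ H, h * x * h⁻¹ = y)
    (p : ℕ) [Fact p.Prime] (hp : p ∣ Nat.card H) : Cfsg.HasNormalPComplement p G := by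
  obtain ⟨PH⟩ : Nonempty (Sylow p H) := inferInstance
  have hidx : ¬ p ∣ ((PH : Subgroup H).map H.subtype).index := by
    rw [index_map_subtype]
    intro h
    rcases (Nat.Prime.dvd_mul Fact.out).1 h with h | h
    · exact PH.not_dvd_index h
    · exact (Nat.Prime.coprime_iff_not_dvd Fact.out).1
        (Nat.Coprime.coprime_dvd_left hp hHall) h
  let P : Sylow p G := (PH.2.map H.subtype).toSylow hidx
  apply npc_of_controls_fusion P
  rintro _ ⟨x, hx, rfl⟩ _ ⟨y, hy, rfl⟩ hg
  obtain ⟨h, hh, hxy⟩ := hfus _ x.2 _ y.2 hg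
  obtain ⟨K, hK, hc⟩ := (hasNormalPComplement_iff_sylow PH).1 (hasNPC_of_nilpotent (G := H))
  have hPn : (PH : Subgroup H).Normal := sylow_normal_of_nilpotent PH
  obtain ⟨⟨⟨k, hk⟩, ⟨u, hu⟩⟩, hku⟩ := hc.2 ⟨h, hh⟩
  simp only at hku
  have hcomm : ∀ w ∈ (PH : Subgroup H), k * w * k⁻¹ = w := by
    intro w hw
    have h1 : ⁅k, w⁆ ∈ K ⊓ (PH : Subgroup H) := by
      constructor
      · rw [commutatorElement_def, mul_assoc, mul_assoc, ← mul_assoc w]
        exact K.mul_mem hk (hK.conj_mem _ (K.inv_mem hk) w)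
      · rw [commutatorElement_def]
        exact Subgroup.mul_mem _ (hPn.conj_mem _ hw k) (Subgroup.inv_mem _ hw)
    rw [hc.disjoint.eq_bot, mem_bot, commutatorElement_eq_one_iff_mul_comm] at h1
    rw [h1]; simp
  refine ⟨u, ⟨u, hu, rfl⟩, ?_⟩
  have h2 : (⟨h, hh⟩ : H) * x * (⟨h, hh⟩ : H)⁻¹ = y := Subtype.ext hxy
  rw [← hku] at h2
  have h3 : k * u * x * (k * u)⁻¹ = k * (u * x * u⁻¹) * k⁻¹ := by group
  rw [h3, hcomm _ (hPn.conj_mem _ hx u)] at h2
  exact congrArg Subtype.val h2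

/-- S0079 -/
theorem nilpotent_hall_complement_iff [Finite G] (H : Subgroup G) (hH : Group.IsNilpotent H)
    (hHall : Nat.Coprime (Nat.card H) H.index) :
    (∃ N : Subgroup G, N.Normal ∧ N.IsComplement' H) ↔
      ∀ x ∈ H, ∀ y ∈ H, (∃ g : G, g * x * g⁻¹ = y) → ∃ h ∈ H, h * x * h⁻¹ = y := by
  constructor
  · rintro ⟨N, hN, hc⟩ x hx _ hy ⟨g, rfl⟩
    obtain ⟨⟨⟨n, hn⟩, ⟨h, hh⟩⟩, hnh⟩ := hc.2 g
    simp only at hnh
    subst hnh
    refine ⟨h, hh, ?_⟩
    have hw : h * x * h⁻¹ ∈ H := H.mul_mem (H.mul_mem hh hx) (H.inv_mem hh)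
    have h1 : n * h * x * (n * h)⁻¹ * (h * x * h⁻¹)⁻¹ ∈ N ⊓ H := by
      constructor
      · have : n * h * x * (n * h)⁻¹ * (h * x * h⁻¹)⁻¹ =
            n * ((h * x * h⁻¹) * n⁻¹ * (h * x * h⁻¹)⁻¹) := by group
        rw [this]
        exact N.mul_mem hn (hN.conj_mem _ (N.inv_mem hn) _)
      · exact H.mul_mem hy (H.inv_mem hw)
    rw [hc.disjoint.eq_bot, mem_bot, mul_inv_eq_one] at h1
    exact h1.symm
  · intro hfus
    have hres : ∀ i : {p : ℕ // p.Prime ∧ p ∣ Nat.card H},
        (Nat.card (Cfsg.pResidual i.1 G)).Coprime i.1 := by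
      intro i
      haveI := Fact.mk i.2.1
      exact hasNormalPComplement_iff.1 (npc_of_nilpotent_hall_controls H hH hHall hfus i.1 i.2.2)
    set N : Subgroup G := ⨅ i : {p : ℕ // p.Prime ∧ p ∣ Nat.card H}, Cfsg.pResidual i.1 G with hN
    have hNn : N.Normal := normal_iInf_normal (fun i => inferInstance)
    refine ⟨N, hNn, isComplement'_of_normal N H ?_ ?_⟩
    · by_contra hne
      have hcard : Nat.card (N ⊓ H : Subgroup G) ≠ 1 := fun h => hne (card_eq_one.1 h)
      obtain ⟨q, hq, hdvd⟩ := Nat.exists_prime_and_dvd hcard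
      have hqH : q ∣ Nat.card H := hdvd.trans (card_dvd_of_le inf_le_right)
      have h0 : N ≤ Cfsg.pResidual q G :=
        iInf_le (fun i : {p : ℕ // p.Prime ∧ p ∣ Nat.card H} => Cfsg.pResidual i.1 G) ⟨q, hq, hqH⟩
      have h1 : q ∣ Nat.card (Cfsg.pResidual q G) :=
        hdvd.trans (card_dvd_of_le (inf_le_left.trans h0))
      exact (Nat.Prime.coprime_iff_not_dvd hq).1 (hres ⟨q, hq, hqH⟩).symm h1
    · rw [← index_eq_one]
      by_contra hne
      obtain ⟨q, hq, hdvd⟩ := Nat.exists_prime_and_dvd hne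
      haveI := Fact.mk hq
      by_cases hqH : q ∣ Nat.card H
      · have h1 : q ∣ H.index := hdvd.trans (index_dvd_of_le le_sup_right)
        exact (Nat.Prime.coprime_iff_not_dvd hq).1 (Nat.Coprime.coprime_dvd_left hqH hHall) h1
      · obtain ⟨S⟩ : Nonempty (Sylow q G) := inferInstance
        have hSN : (S : Subgroup G) ≤ N := by
          intro x hx
          rw [hN, mem_iInf]
          intro i
          apply Subgroup.subset_closure
          obtain ⟨k, hk⟩ := (IsPGroup.iff_orderOf.1 S.2) ⟨x, hx⟩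
          rw [Subgroup.orderOf_mk] at hk
          change (orderOf x).Coprime i.1
          rw [hk]
          apply Nat.Coprime.pow_left
          rw [Nat.coprime_primes hq i.2.1]
          rintro rfl
          exact hqH i.2.2
        exact S.not_dvd_index (hdvd.trans (index_dvd_of_le (hSN.trans le_sup_left)))

end Cfsg.H1
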