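import Mathlib

namespace Cfsg.H1

open MulAction
open scoped Pointwise

variable {α : Type*} [Fintype α] [DecidableEq α]

theorem gen_exists (G : Subgroup (Equiv.Perm α)) {k : ℕ}
    (hgen : ∀ s : Finset α, s.card = k + 1 → ∀ σ : Equiv.Perm ↥s, ∃ g ∈ G, ∀ x : ↥s, g (x : α) = σ x)
    (s : Finset α) (hs : s.card = k + 1) (φ : α → α) (hmap : ∀ x ∈ s, φ x ∈ s)
    (hinj : Set.InjOn φ (s : Set α)) : ∃ g : G, ∀ x ∈ s, g • x = φ x := by
  let F : s → s := fun x => ⟨φ x, hmap x x.2⟩
  have hF : Function.Injective F := fun x y h =>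
    Subtype.ext (hinj x.2 y.2 (congrArg Subtype.val h))
  let σ : Equiv.Perm s := Equiv.ofBijective F (Finite.injective_iff_bijective.1 hF)
  obtain ⟨g, hg, h⟩ := hgen s hs σ
  exact ⟨⟨g, hg⟩, fun x hx => h ⟨x, hx⟩⟩

theorem gen_set_trans (G : Subgroup (Equiv.Perm α)) {k : ℕ}
    (hgen : ∀ s : Finset α, s.card = k + 1 → ∀ σ : Equiv.Perm ↥s, ∃ g ∈ G, ∀ x : ↥s, g (x : α) = σ x) :
    ∀ (n : ℕ) (A B : Finset α), A.card = k → B.card = k → (A \ B).card = n →
      ∃ g : G, ∀ x ∈ A, g • x ∈ B := by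
  intro n
  induction n with
  | zero =>
    intro A B _ _ h
    refine ⟨1, fun x hx => ?_⟩
    rw [one_smul]
    exact (Finset.sdiff_eq_empty_iff_subset.1 (Finset.card_eq_zero.1 h)) hx
  | succ n ih =>
    intro A B hA hB h
    obtain ⟨a, ha⟩ : (A \ B).Nonempty := by rw [← Finset.card_pos]; omega
    obtain ⟨b, hb⟩ : (B \ A).Nonempty := by
      rw [← Finset.card_pos, Finset.card_sdiff_comm (hB.trans hA.symm)]; omega
    rw [Finset.mem_sdiff] at ha hb
    have hab : a ≠ b := fun h => ha.2 (h ▸ hb.1)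
    obtain ⟨g1, hg1⟩ := gen_exists G hgen (insert b A)
      (by rw [Finset.card_insert_of_notMem hb.2, hA]) (Equiv.swap a b)
      (by
        intro x hx
        by_cases h1 : x = a
        · rw [h1, Equiv.swap_apply_left]; exact Finset.mem_insert_self _ _
        · by_cases h2 : x = b
          · rw [h2, Equiv.swap_apply_right]; exact Finset.mem_insert_of_mem ha.1
          · rw [Equiv.swap_apply_of_ne_of_ne h1 h2]; exact hx)
      ((Equiv.swap a b).injective.injOn)
    have hA1 : (insert b (A.erase a)).card = k := by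
      rw [Finset.card_insert_of_notMem (fun h => hb.2 (Finset.mem_of_mem_erase h)),
        Finset.card_erase_of_mem ha.1]
      have : 0 < A.card := Finset.card_pos.2 ⟨a, ha.1⟩
      omega
    have hA1B : (insert b (A.erase a) \ B).card = n := by
      have : insert b (A.erase a) \ B = (A \ B).erase a := by
        ext x
        simp only [Finset.mem_sdiff, Finset.mem_insert, Finset.mem_erase]
        constructor
        · rintro ⟨h1 | h1, h2⟩
          · exact absurd (h1 ▸ hb.1) h2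
          · exact ⟨h1.1, h1.2, h2⟩
        · rintro ⟨h1, h2, h3⟩
          exact ⟨Or.inr ⟨h1, h2⟩, h3⟩
      rw [this, Finset.card_erase_of_mem (Finset.mem_sdiff.2 ha), h]; rfl
    obtain ⟨g2, hg2⟩ := ih _ B hA1 hB hA1B
    refine ⟨g2 * g1, fun x hx => ?_⟩
    rw [mul_smul, hg1 x (Finset.mem_insert_of_mem hx)]
    apply hg2
    by_cases h1 : x = a
    · rw [h1, Equiv.swap_apply_left]; exact Finset.mem_insert_self _ _
    · have h2 : x ≠ b := fun h => hb.2 (h ▸ hx)
      rw [Equiv.swap_apply_of_ne_of_ne h1 h2]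
      exact Finset.mem_insert_of_mem (Finset.mem_erase.2 ⟨h1, hx⟩)

theorem generous_orbits (G : Subgroup (Equiv.Perm α)) {k : ℕ}
    (hgen : ∀ s : Finset α, s.card = k + 1 → ∀ σ : Equiv.Perm ↥s, ∃ g ∈ G, ∀ x : ↥s, g (x : α) = σ x)
    {p : ℕ} (hp : p.Prime) (hpk : p ≤ k) (Γ : Finset α) (hΓ : Γ.card = k) (f : Fin p → α)
    (hf : ∀ i, f i ∉ Γ)
    (hdist : ∀ i j, i ≠ j → f j ∉ MulAction.orbit (fixingSubgroup G (Γ : Set α)) (f i)) :
    ∃ i, p ∣ Nat.card (MulAction.orbit (fixingSubgroup G (Γ : Set α)) (f i)) := by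
  classical
  haveI := Fact.mk hp
  by_contra hcon
  push Not at hcon
  set H := fixingSubgroup G (Γ : Set α) with hH
  obtain ⟨Γ1, hΓ1, hΓ1c⟩ := Finset.exists_subset_card_eq (hΓ ▸ hpk : p ≤ Γ.card)
  set Γ0 := Γ \ Γ1 with hΓ0
  set M : Subgroup G := fixingSubgroup G (Γ0 : Set α) ⊓ MulAction.stabilizer G Γ1 with hM
  have memH : ∀ g : G, g ∈ H ↔ ∀ x ∈ Γ, g • x = x := by
    intro g
    rw [hH, mem_fixingSubgroup_iff]
    simp
  have memM : ∀ g : G, g ∈ M ↔ (∀ x ∈ Γ0, g • x = x) ∧ ∀ x ∈ Γ1, g • x ∈ Γ1 := by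
    intro g
    rw [hM, Subgroup.mem_inf, mem_fixingSubgroup_iff, mem_stabilizer_finset']
    simp
  have hΓsplit : ∀ x, x ∈ Γ ↔ x ∈ Γ0 ∨ x ∈ Γ1 := by
    intro x
    rw [hΓ0, Finset.mem_sdiff]
    constructor
    · intro h
      by_cases h1 : x ∈ Γ1
      · exact Or.inr h1
      · exact Or.inl ⟨h, h1⟩
    · rintro (h | h)
      · exact h.1
      · exact hΓ1 h
  have hHM : H ≤ M := by
    intro g hg
    rw [memH] at hg
    rw [memM]
    exact ⟨fun x hx => hg x ((hΓsplit x).2 (Or.inl hx)),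
      fun x hx => by rw [hg x (hΓ1 hx)]; exact hx⟩
  have hMΓ : ∀ m ∈ M, ∀ x ∈ Γ, m • x ∈ Γ := by
    intro m hm x hx
    rw [memM] at hm
    rcases (hΓsplit x).1 hx with h | h
    · rw [hm.1 x h]; exact hx
    · exact hΓ1 (hm.2 x h)
  -- (3)
  have h3 : ∀ m ∈ M, ∀ δ, δ ∉ Γ → ∃ h ∈ H, m • δ = h • δ := by
    intro m hm δ hδ
    obtain ⟨g, hg⟩ := gen_exists G hgen (insert δ Γ)
      (by rw [Finset.card_insert_of_notMem hδ, hΓ]) (fun x => if x ∈ Γ then m • x else x)
      (by
        intro x hx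
        by_cases h1 : x ∈ Γ
        · simp only [if_pos h1]; exact Finset.mem_insert_of_mem (hMΓ m hm x h1)
        · simp only [if_neg h1]; exact hx)
      (by
        intro x _ y _ hxy
        simp only at hxy
        by_cases h1 : x ∈ Γ
        · by_cases h2 : y ∈ Γ
          · rw [if_pos h1, if_pos h2] at hxy
            exact smul_left_cancel m hxy
          · rw [if_pos h1, if_neg h2] at hxy
            exact absurd (hxy ▸ hMΓ m hm x h1) h2
        · by_cases h2 : y ∈ Γ
          · rw [if_neg h1, if_pos h2] at hxy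
            exact absurd (hxy ▸ hMΓ m hm y h2) h1
          · rw [if_neg h1, if_neg h2] at hxy; exact hxy)
    refine ⟨m * g⁻¹, ?_, ?_⟩
    · rw [memH]
      intro x hx
      have hx' : m⁻¹ • x ∈ Γ := hMΓ m⁻¹ (M.inv_mem hm) x hx
      have h1 : g • (m⁻¹ • x) = x := by
        rw [hg _ (Finset.mem_insert_of_mem hx'), if_pos hx', smul_inv_smul]
      have h2 : g⁻¹ • x = m⁻¹ • x := by rw [inv_smul_eq_iff, h1]
      rw [mul_smul, h2, smul_inv_smul]
    · have h1 : g • δ = δ := by rw [hg _ (Finset.mem_insert_self _ _), if_neg hδ]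
      rw [mul_smul, inv_smul_eq_iff.2 h1.symm]
  have horb : ∀ δ, δ ∉ Γ → (MulAction.orbit M δ : Set α) = MulAction.orbit H δ := by
    intro δ hδ
    ext y
    constructor
    · rintro ⟨m, rfl⟩
      obtain ⟨h, hh, e⟩ := h3 m m.2 δ hδ
      exact ⟨⟨h, hh⟩, e.symm⟩
    · rintro ⟨h, rfl⟩
      exact ⟨⟨h, hHM h.2⟩, rfl⟩
  -- (2)
  have hp0 : 0 < p := hp.pos
  obtain ⟨γ1, hγ1⟩ : Γ1.Nonempty := by rw [← Finset.card_pos, hΓ1c]; exact hp0
  have horbγ : (MulAction.orbit M γ1 : Set α) = (Γ1 : Set α) := by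
    ext y
    constructor
    · rintro ⟨m, rfl⟩
      exact ((memM m).1 m.2).2 γ1 hγ1
    · intro hy
      rw [Finset.mem_coe] at hy
      obtain ⟨g, hg⟩ := gen_exists G hgen (insert (f ⟨0, hp0⟩) Γ)
        (by rw [Finset.card_insert_of_notMem (hf _), hΓ]) (Equiv.swap γ1 y)
        (by
          intro x hx
          by_cases h1 : x = γ1
          · rw [h1, Equiv.swap_apply_left]; exact Finset.mem_insert_of_mem (hΓ1 hy)
          · by_cases h2 : x = y
            · rw [h2, Equiv.swap_apply_right]; exact Finset.mem_insert_of_mem (hΓ1 hγ1)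
            · rw [Equiv.swap_apply_of_ne_of_ne h1 h2]; exact hx)
        ((Equiv.swap γ1 y).injective.injOn)
      have hgM : g ∈ M := by
        rw [memM]
        constructor
        · intro x hx
          have hxΓ : x ∈ Γ := (hΓsplit x).2 (Or.inl hx)
          have hx1 : x ∉ Γ1 := (Finset.mem_sdiff.1 hx).2
          have n1 : x ≠ γ1 := fun h => hx1 (by rw [h]; exact hγ1)
          have n2 : x ≠ y := fun h => hx1 (by rw [h]; exact hy)
          rw [hg x (Finset.mem_insert_of_mem hxΓ), Equiv.swap_apply_of_ne_of_ne n1 n2]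
        · intro x hx
          rw [hg x (Finset.mem_insert_of_mem (hΓ1 hx))]
          by_cases h1 : x = γ1
          · rw [h1, Equiv.swap_apply_left]; exact hy
          · by_cases h2 : x = y
            · rw [h2, Equiv.swap_apply_right]; exact hγ1
            · rw [Equiv.swap_apply_of_ne_of_ne h1 h2]; exact hx
      refine ⟨⟨g, hgM⟩, ?_⟩
      show g • γ1 = y
      rw [hg γ1 (Finset.mem_insert_of_mem (hΓ1 hγ1)), Equiv.swap_apply_left]
  have hcardorb : Nat.card (MulAction.orbit M γ1) = p := by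
    rw [horbγ]
    simp [hΓ1c]
  have hdvd : p * Nat.card H ∣ Nat.card M := by
    have e1 := MulAction.card_orbit_mul_card_stabilizer_eq_card_group M γ1
    simp only [← Nat.card_eq_fintype_card] at e1
    rw [hcardorb] at e1
    rw [← e1]
    apply Nat.mul_dvd_mul_left
    have hle : H.subgroupOf M ≤ MulAction.stabilizer M γ1 := by
      intro m hm
      rw [Subgroup.mem_subgroupOf, memH] at hm
      exact hm γ1 (hΓ1 hγ1)
    have e2 := Subgroup.card_dvd_of_le hle
    rwa [Nat.card_congr (Subgroup.subgroupOfEquivOfLe hHM).toEquiv] at e2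
  -- (4)
  let P : Sylow p M := default
  have h4 : ∀ i, ∃ δ' ∈ MulAction.orbit H (f i), ∀ x ∈ (P : Subgroup M), (x : G) • δ' = δ' := by
    intro i
    have hnd : ¬ p ∣ Nat.card (MulAction.orbit M (f i)) := by
      rw [horb (f i) (hf i)]; exact hcon i
    obtain ⟨⟨δ', hδ'⟩, hfix⟩ := P.2.nonempty_fixed_point_of_prime_not_dvd_card
      (MulAction.orbit M (f i)) hnd
    refine ⟨δ', by rw [← horb (f i) (hf i)]; exact hδ', fun x hx => ?_⟩
    have := hfix ⟨x, hx⟩
    exact congrArg Subtype.val this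
  choose δ' hδ'orb hδ'fix using h4
  have hδ'Γ : ∀ i, δ' i ∉ Γ := by
    intro i hmem
    obtain ⟨h, hh⟩ := hδ'orb i
    have h1 : (h : G) • f i = δ' i := hh
    have h2 : (h : G)⁻¹ • δ' i = δ' i := (memH _).1 (H.inv_mem h.2) _ hmem
    apply hf i
    rw [← h1, inv_smul_smul] at h2
    rw [h2]; rw [h1]; exact hmem
  have hδ'inj : Function.Injective δ' := by
    intro i j hij
    by_contra hne
    apply hdist i j hne
    have h1 := hδ'orb i
    have h2 := hδ'orb j
    rw [hij] at h1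
    have e1 := MulAction.orbit_eq_iff.2 h1
    have e2 := MulAction.orbit_eq_iff.2 h2
    rw [← e1, e2]
    exact MulAction.mem_orbit_self _
  set Γ' : Finset α := Γ0 ∪ Finset.univ.image δ' with hΓ'
  have hΓ'c : Γ'.card = k := by
    rw [hΓ', Finset.card_union_of_disjoint, Finset.card_image_of_injective _ hδ'inj,
      Finset.card_univ, Fintype.card_fin]
    · have := Finset.card_sdiff_add_card_eq_card hΓ1
      rw [← hΓ0] at this
      omega
    · rw [Finset.disjoint_left]
      intro x hx hx2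
      obtain ⟨i, _, rfl⟩ := Finset.mem_image.1 hx2
      exact hδ'Γ i ((hΓsplit _).2 (Or.inl hx))
  obtain ⟨g, hg⟩ := gen_set_trans G hgen _ Γ' Γ hΓ'c hΓ rfl
  have hgsurj : ∀ y ∈ Γ, ∃ x ∈ Γ', g • x = y := by
    have himg : Γ'.image (fun x => g • x) = Γ := by
      apply Finset.eq_of_subset_of_card_le
      · intro y hy
        obtain ⟨x, hx, rfl⟩ := Finset.mem_image.1 hy
        exact hg x hx
      · rw [Finset.card_image_of_injective _ (MulAction.injective g), hΓ'c, hΓ]
    intro y hy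
    rw [← himg] at hy
    obtain ⟨x, hx, e⟩ := Finset.mem_image.1 hy
    exact ⟨x, hx, e⟩
  have hPfix : ∀ x ∈ (P : Subgroup M), ∀ y ∈ Γ', (x : G) • y = y := by
    intro x hx y hy
    rcases Finset.mem_union.1 hy with h | h
    · exact ((memM x).1 x.2).1 y h
    · obtain ⟨i, _, rfl⟩ := Finset.mem_image.1 h
      exact hδ'fix i x hx
  have hle : (((P : Subgroup M).map M.subtype).map (MulAut.conj g).toMonoidHom) ≤ H := by
    rintro _ ⟨_, ⟨x, hx, rfl⟩, rfl⟩
    rw [memH]
    intro y hy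
    obtain ⟨y', hy', rfl⟩ := hgsurj y hy
    simp only [MulEquiv.coe_toMonoidHom, MulAut.conj_apply, Subgroup.coe_subtype, mul_smul,
      inv_smul_smul]
    rw [hPfix x hx y' hy']
  have hcardP : Nat.card (((P : Subgroup M).map M.subtype).map (MulAut.conj g).toMonoidHom)
      = Nat.card (P : Subgroup M) := by
    rw [Subgroup.card_map_of_injective (MulAut.conj g).injective,
      Subgroup.card_map_of_injective M.subtype_injective]
  have h8 := Subgroup.card_dvd_of_le hle
  rw [hcardP, P.card_eq_multiplicity] at h8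
  have h9 : p ^ ((Nat.card M).factorization p + 1) ∣ Nat.card M := by
    rw [pow_succ, mul_comm]
    exact (Nat.mul_dvd_mul_left p h8).trans hdvd
  exact Nat.pow_succ_factorization_not_dvd Nat.card_pos.ne' hp h9

end Cfsg.H1
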