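import Mathlib
import Cfsg.Prelude.Def_Transfer
import Cfsg.Agent.H1.FusionNPC

set_option autoImplicit false

namespace Cfsg.H1

open Subgroup Cfsg.Agent.H12
open scoped Pointwise commutatorElement

universe u

theorem hall_burnside_aux (n : ℕ) : ∀ (G : Type u) [Group G] [Finite G], Nat.card G = n →
    ∀ H : Subgroup G, Nat.Coprime (Nat.card H) H.index →
    Subgroup.normalizer (H : Set G) ≤ Subgroup.centralizer (H : Set G) →
    ∃ N : Subgroup G, N.Normal ∧ N.IsComplement' H := by
  induction n using Nat.strong_induction_on with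
  | _ n ih =>
    intro G _ _ hn H hHall hNC
    have hab : IsMulCommutative H := le_centralizer_iff_isMulCommutative.1 (le_normalizer.trans hNC)
    have hnil : Group.IsNilpotent H := by
      letI : CommGroup H := { (inferInstance : Group H) with mul_comm := fun a b => mul_comm' a b }
      infer_instance
    rw [nilpotent_hall_complement_iff H hnil hHall]
    rintro x hx _ hy ⟨g, rfl⟩
    refine ⟨1, one_mem _, ?_⟩
    rw [one_mul, inv_one, mul_one]
    set y := g * x * g⁻¹ with hydef
    by_cases hC : centralizer {y} = ⊤
    · have hg : g ∈ centralizer {y} := hC ▸ mem_top g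
      rw [mem_centralizer_singleton_iff] at hg
      -- g * y = y * g
      have : y = g * y * g⁻¹ := by rw [hg]; simp
      rw [hydef] at this
      have h2 := mul_left_cancel (mul_right_cancel this)
      rw [hydef]; exact h2
    · set C := centralizer {y} with hCdef
      have hHC : H ≤ C := by
        intro h hh
        rw [hCdef, mem_centralizer_singleton_iff]
        exact congrArg Subtype.val (mul_comm' (⟨h, hh⟩ : H) ⟨y, hy⟩)
      have hH2C : MulAut.conj g • H ≤ C := by
        intro w hw
        rw [mem_conj_smul_iff] at hw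
        rw [hCdef, mem_centralizer_singleton_iff]
        have h1 : (g⁻¹ * w * g) * x = x * (g⁻¹ * w * g) :=
          congrArg Subtype.val (mul_comm' (⟨_, hw⟩ : H) ⟨x, hx⟩)
        calc w * y = g * ((g⁻¹ * w * g) * x) * g⁻¹ := by rw [hydef]; group
          _ = g * (x * (g⁻¹ * w * g)) * g⁻¹ := by rw [h1]
          _ = y * w := by rw [hydef]; group
      have hcardH' : Nat.card (H.subgroupOf C) = Nat.card H := card_subgroupOf_of_le hHC
      have hHall' : Nat.Coprime (Nat.card (H.subgroupOf C)) (H.subgroupOf C).index := by
        rw [hcardH']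
        exact Nat.Coprime.coprime_dvd_right (relIndex_dvd_index_of_le hHC) hHall
      have hNC' : normalizer ((H.subgroupOf C : Subgroup C) : Set C) ≤
          centralizer ((H.subgroupOf C : Subgroup C) : Set C) := by
        rw [← subgroupOf_normalizer_eq hHC]
        intro c hc
        have h1 := hNC (mem_subgroupOf.1 hc)
        rw [mem_centralizer_iff] at h1 ⊢
        intro h hh
        exact Subtype.ext (h1 h (mem_subgroupOf.1 hh))
      obtain ⟨N, hN, hc⟩ := ih (Nat.card C) (hn ▸ card_lt_of_ne_top hC) C rfl _ hHall' hNC'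
      have hcard2 : Nat.card ((MulAut.conj g • H).subgroupOf C) = Nat.card (H.subgroupOf C) := by
        rw [card_subgroupOf_of_le hH2C, hcardH', card_conj_smul]
      have hcopN : (Nat.card N).Coprime (Nat.card (H.subgroupOf C)) := by
        rw [← hc.index_eq_card]; exact hHall'.symm
      have hc2 : N.IsComplement' ((MulAut.conj g • H).subgroupOf C) := by
        apply isComplement'_of_coprime
        · rw [hcard2]; exact hc.card_mul_card
        · rw [hcard2]; exact hcopN
      have hsolv : Group.IsSolvable (H.subgroupOf C) := isSolvable_subgroupOf C inferInstance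
      obtain ⟨c, hcc⟩ := sz_conj N _ _ (by rw [hc.symm.index_eq_card]; exact hcopN)
        (Or.inr hsolv) hc hc2
      have h1 := conj_of_subgroupOf hHC hH2C c hcc
      have h2 : g⁻¹ * c ∈ normalizer (H : Set G) := by
        rw [mem_normalizer_iff_map_conj_eq]
        change MulAut.conj (g⁻¹ * (c : G)) • H = H
        rw [conj_mul_smul, h1, ← conj_mul_smul, inv_mul_cancel, map_one, one_smul]
      have h3 := (mem_centralizer_iff.1 (hNC h2)) x hx
      have h4 : (c : G) ∈ centralizer {y} := c.2
      rw [mem_centralizer_singleton_iff] at h4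
      -- x * (g⁻¹ c) = (g⁻¹ c) * x  ⇒ c x c⁻¹ = g x g⁻¹ = y
      have h5 : (c : G) * x * (c : G)⁻¹ = y := by
        rw [hydef]
        calc (c : G) * x * (c : G)⁻¹ = g * ((g⁻¹ * c) * x) * (c : G)⁻¹ := by group
          _ = g * (x * (g⁻¹ * c)) * (c : G)⁻¹ := by rw [h3]
          _ = g * x * g⁻¹ := by group
      have h6 : x = (c : G)⁻¹ * y * c := by rw [← h5]; group
      rw [h6, mul_assoc, ← h4]; simp

/-- S0087 -/
theorem hall_burnside {G : Type u} [Group G] [Finite G] (H : Subgroup G)
    (hHall : Nat.Coprime (Nat.card H) H.index)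
    (h : Subgroup.normalizer (H : Set G) ≤ Subgroup.centralizer (H : Set G)) :
    ∃ N : Subgroup G, N.Normal ∧ N.IsComplement' H :=
  hall_burnside_aux _ G rfl H hHall h

end Cfsg.H1
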