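import Mathlib
import Cfsg.Agent.H1.HallPrep
import Cfsg.Agent.H1.Brodkey

set_option autoImplicit false

namespace Cfsg.H1

open Subgroup
open scoped Pointwise

universe u

theorem le_normalCore_of_factor {G : Type u} [Group G] [Finite G] {p : ℕ} [Fact p.Prime]
    {H₁ H N : Subgroup G} (hN : IsPGroup p N) (hH₁N : H₁ ≤ normalizer (N : Set G))
    (hfac : ∀ g : G, ∃ x ∈ H₁, ∃ y ∈ H, g = x * y) (hp : ¬ p ∣ H.index) : N ≤ H.normalCore := by
  have hfac' : ∀ g : G, ∃ y ∈ H, ∃ x ∈ H₁, g = y * x := by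
    intro g
    obtain ⟨a, ha, b, hb, h⟩ := hfac g⁻¹
    exact ⟨b⁻¹, H.inv_mem hb, a⁻¹, H₁.inv_mem ha, by rw [← mul_inv_rev, ← h, inv_inv]⟩
  obtain ⟨P⟩ : Nonempty (Sylow p H) := inferInstance
  have hPidx : ¬ p ∣ ((P : Subgroup H).map H.subtype).index := by
    rw [index_map_subtype]
    exact Nat.Prime.not_dvd_mul Fact.out P.not_dvd_index hp
  let P' : Sylow p G := (P.2.map H.subtype).toSylow hPidx
  have hP'H : (P' : Subgroup G) ≤ H := map_subtype_le _
  obtain ⟨g, -, hg⟩ := exists_conj_le_sylow_of_le P' le_top (le_top : N ≤ ⊤) hN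
  have hNH : N ≤ H := by
    obtain ⟨y, hy, x, hx, rfl⟩ := hfac' g
    rw [conj_mul_smul, conj_smul_eq_of_mem_normalizer (hH₁N hx)] at hg
    have h1 := hg.trans hP'H
    rw [pointwise_smul_subset_iff, ← map_inv, conj_smul_eq_self_of_mem (H.inv_mem hy)] at h1
    exact h1
  intro n hn b
  obtain ⟨y, hy, x, hx, rfl⟩ := hfac' b
  have h1 : x * n * x⁻¹ ∈ N := (mem_normalizer_iff.1 (hH₁N hx) n).1 hn
  have h2 := H.mul_mem (H.mul_mem hy (hNH h1)) (H.inv_mem hy)
  have h3 : y * x * n * (y * x)⁻¹ = y * (x * n * x⁻¹) * y⁻¹ := by group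
  rw [h3]; exact h2

theorem three_solvable_aux (n : ℕ) : ∀ (G : Type u) [Group G] [Finite G], Nat.card G ≤ n →
    ∀ (H₁ H₂ H₃ : Subgroup G), Group.IsSolvable H₁ → Group.IsSolvable H₂ → Group.IsSolvable H₃ →
    (∀ g : G, ∃ x ∈ H₁, ∃ y ∈ H₂, g = x * y) → (∀ g : G, ∃ x ∈ H₁, ∃ y ∈ H₃, g = x * y) →
    H₂.index.Coprime H₃.index → Group.IsSolvable G := by
  induction n with
  | zero =>
    intro G _ _ h
    exact absurd h (by have := Nat.card_pos (α := G); omega)
  | succ n ih =>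
    intro G _ _ hcard H₁ H₂ H₃ h₁ h₂ h₃ h12 h13 hcop
    by_cases hbot : H₁ = ⊥
    · have htop : H₂ = ⊤ := by
        rw [eq_top_iff]
        intro g _
        obtain ⟨x, hx, y, hy, rfl⟩ := h12 g
        rw [hbot, mem_bot] at hx
        rw [hx, one_mul]; exact hy
      rw [htop] at h₂
      exact Group.isSolvable_of_surjective (f := (⊤ : Subgroup G).subtype)
        (fun g => ⟨⟨g, mem_top g⟩, rfl⟩)
    · have : Nontrivial H₁ := (nontrivial_iff_ne_bot H₁).2 hbot
      obtain ⟨p, N₀, hp, hN₀n, hN₀bot, hN₀p⟩ := exists_normal_pgroup (G := H₁)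
      have : Fact p.Prime := ⟨hp⟩
      have hNp : IsPGroup p (N₀.map H₁.subtype) := hN₀p.map _
      have hNbot : N₀.map H₁.subtype ≠ ⊥ := by
        rw [Ne, Subgroup.map_eq_bot_iff_of_injective _ H₁.subtype_injective]; exact hN₀bot
      have hnorm : H₁ ≤ normalizer ((N₀.map H₁.subtype : Subgroup G) : Set G) := by
        have h1 := le_normalizer_map (H := N₀) H₁.subtype
        rw [normalizer_eq_top_iff.2 hN₀n, ← MonoidHom.range_eq_map, range_subtype] at h1
        exact h1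
      -- a nontrivial solvable normal subgroup
      have hM : ∃ M : Subgroup G, M.Normal ∧ M ≠ ⊥ ∧ Group.IsSolvable M := by
        by_cases hp2 : p ∣ H₂.index
        · have hp3 : ¬ p ∣ H₃.index := fun h =>
            hp.one_lt.ne' (Nat.eq_one_of_dvd_coprimes hcop hp2 h)
          have := le_normalCore_of_factor hNp hnorm h13 hp3
          exact ⟨H₃.normalCore, inferInstance, fun h => hNbot (le_bot_iff.1 (h ▸ this)),
            isSolvable_of_le (normalCore_le H₃) h₃⟩
        · have := le_normalCore_of_factor hNp hnorm h12 hp2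
          exact ⟨H₂.normalCore, inferInstance, fun h => hNbot (le_bot_iff.1 (h ▸ this)),
            isSolvable_of_le (normalCore_le H₂) h₂⟩
      obtain ⟨M, hMn, hMbot, hMs⟩ := hM
      have hQ : Nat.card (G ⧸ M) ≤ n := by have := card_quotient_lt hMbot; omega
      have hf := QuotientGroup.mk'_surjective M
      have hfac : ∀ (H : Subgroup G), (∀ g : G, ∃ x ∈ H₁, ∃ y ∈ H, g = x * y) →
          ∀ q : G ⧸ M, ∃ x ∈ H₁.map (QuotientGroup.mk' M), ∃ y ∈ H.map (QuotientGroup.mk' M),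
            q = x * y := by
        intro H h q
        obtain ⟨g, rfl⟩ := hf q
        obtain ⟨x, hx, y, hy, rfl⟩ := h g
        exact ⟨_, mem_map_of_mem _ hx, _, mem_map_of_mem _ hy, map_mul _ _ _⟩
      have hsQ := ih (G ⧸ M) hQ (H₁.map (QuotientGroup.mk' M)) (H₂.map (QuotientGroup.mk' M))
        (H₃.map (QuotientGroup.mk' M)) (isSolvable_map _ h₁) (isSolvable_map _ h₂)
        (isSolvable_map _ h₃) (hfac H₂ h12) (hfac H₃ h13)
        (Nat.Coprime.coprime_dvd_left (index_map_dvd H₂ hf)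
          (Nat.Coprime.coprime_dvd_right (index_map_dvd H₃ hf) hcop))
      exact (Group.isSolvable_iff_subgroup_quotient M).2 ⟨hMs, hsQ⟩

end Cfsg.H1
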