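import Mathlib
import Cfsg.Agent.H1.ThreeSolv
import Cfsg.Agent.H1.Basic
import Cfsg.Agent.S0144

set_option autoImplicit false

namespace Cfsg.H1

open Subgroup
open scoped Pointwise

universe u

/-- A natural number without three distinct prime divisors is `p ^ a * q ^ b`. -/
theorem exists_two_prime_pow (n : ℕ) (hn : n ≠ 0)
    (h : ¬ ∃ p q r : ℕ, p.Prime ∧ q.Prime ∧ r.Prime ∧ p ≠ q ∧ p ≠ r ∧ q ≠ r ∧ p ∣ n ∧ q ∣ n ∧ r ∣ n) :
    ∃ p q a b : ℕ, p.Prime ∧ q.Prime ∧ n = p ^ a * q ^ b := by
  by_cases h1 : n = 1
  · exact ⟨2, 3, 0, 0, Nat.prime_two, Nat.prime_three, by simp [h1]⟩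
  have hp : n.minFac.Prime := Nat.minFac_prime h1
  set p := n.minFac with hpdef
  set m := n / p ^ n.factorization p with hm
  have hnm : p ^ n.factorization p * m = n := Nat.ordProj_mul_ordCompl_eq_self n p
  have hm0 : m ≠ 0 := by rintro h0; rw [h0, mul_zero] at hnm; exact hn hnm.symm
  have hpm : ¬ p ∣ m := Nat.not_dvd_ordCompl hp hn
  by_cases h2 : m = 1
  · exact ⟨p, 3, n.factorization p, 0, hp, Nat.prime_three, by rw [pow_zero, ← h2, hnm]⟩
  have hq : m.minFac.Prime := Nat.minFac_prime h2
  set q := m.minFac with hqdef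
  set m' := m / q ^ m.factorization q with hm'
  have hmm' : q ^ m.factorization q * m' = m := Nat.ordProj_mul_ordCompl_eq_self m q
  have hqm' : ¬ q ∣ m' := Nat.not_dvd_ordCompl hq hm0
  by_cases h3 : m' = 1
  · refine ⟨p, q, n.factorization p, m.factorization q, hp, hq, ?_⟩
    calc n = p ^ n.factorization p * m := hnm.symm
      _ = p ^ n.factorization p * (q ^ m.factorization q * m') := by rw [hmm']
      _ = _ := by rw [h3, mul_one]
  exfalso
  apply h
  have hr : m'.minFac.Prime := Nat.minFac_prime h3
  have hrm' : m'.minFac ∣ m' := Nat.minFac_dvd m'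
  have hm'm : m' ∣ m := Dvd.intro_left _ hmm'
  have hmn : m ∣ n := Dvd.intro_left _ hnm
  have hqm : q ∣ m := Nat.minFac_dvd m
  refine ⟨p, q, m'.minFac, hp, hq, hr, ?_, ?_, ?_, Nat.minFac_dvd n, hqm.trans hmn,
    (hrm'.trans hm'm).trans hmn⟩
  · intro e; exact hpm (e ▸ hqm)
  · intro e; exact hpm (e ▸ (hrm'.trans hm'm))
  · intro e; exact hqm' (e ▸ hrm')

theorem relIndex_eq_index_of_coprime {G : Type u} [Group G] [Finite G] (H K : Subgroup G)
    (h : H.index.Coprime K.index) : K.relIndex H = K.index := by
  have h1 := index_inf_of_coprime H K h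
  have h2 := relIndex_mul_index (inf_le_left : H ⊓ K ≤ H)
  rw [inf_relIndex_left, h1, mul_comm] at h2
  exact Nat.eq_of_mul_eq_mul_left (Nat.pos_of_ne_zero index_ne_zero_of_finite) h2

theorem hall_converse_aux (n : ℕ) : ∀ (G : Type u) [Group G] [Finite G], Nat.card G ≤ n →
    (∀ p : ℕ, p.Prime → ∃ H : Subgroup G, H.index = p ^ (Nat.card G).factorization p) →
    Group.IsSolvable G := by
  induction n with
  | zero =>
    intro G _ _ h
    exact absurd h (by have := Nat.card_pos (α := G); omega)
  | succ n ih =>
    intro G _ _ hcard h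
    have hne : Nat.card G ≠ 0 := Nat.card_pos.ne'
    by_cases h3 : ∃ p q r : ℕ, p.Prime ∧ q.Prime ∧ r.Prime ∧ p ≠ q ∧ p ≠ r ∧ q ≠ r ∧
        p ∣ Nat.card G ∧ q ∣ Nat.card G ∧ r ∣ Nat.card G
    · -- Hall complements are solvable by induction
      have hsolv : ∀ p : ℕ, p.Prime → p ∣ Nat.card G → ∀ H : Subgroup G,
          H.index = p ^ (Nat.card G).factorization p → Group.IsSolvable H := by
        intro p hp hpd H hH
        have hv : (Nat.card G).factorization p ≠ 0 := by
          have := (hp.dvd_iff_one_le_factorization hne).1 hpd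
          omega
        have hHtop : H ≠ ⊤ := by
          intro e
          rw [e, index_top] at hH
          exact (Nat.one_lt_pow hv hp.one_lt).ne hH
        have hHcard : Nat.card H ≤ n := by have := card_lt_of_ne_top hHtop; omega
        have hmul : Nat.card H * p ^ (Nat.card G).factorization p = Nat.card G := by
          rw [← hH]; exact H.card_mul_index
        have hHne : Nat.card H ≠ 0 := Nat.card_pos.ne'
        apply ih H hHcard
        intro q hq
        by_cases hqp : q = p
        · subst hqp
          refine ⟨⊤, ?_⟩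
          have h5 : (Nat.card H).factorization q = 0 := by
            have h6 : (Nat.card H * q ^ (Nat.card G).factorization q).factorization q =
                (Nat.card G).factorization q := by rw [hmul]
            rw [Nat.factorization_mul hHne (pow_ne_zero _ hq.ne_zero), Finsupp.add_apply,
              Nat.factorization_pow, Finsupp.smul_apply, hq.factorization_self] at h6
            simp at h6
            exact h6
          rw [h5, pow_zero, index_top]
        · obtain ⟨K, hK⟩ := h q hq
          refine ⟨K.subgroupOf H, ?_⟩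
          have h5 : (Nat.card H).factorization q = (Nat.card G).factorization q := by
            have h6 : (Nat.card H * p ^ (Nat.card G).factorization p).factorization q =
                (Nat.card G).factorization q := by rw [hmul]
            rw [Nat.factorization_mul hHne (pow_ne_zero _ hp.ne_zero), Finsupp.add_apply,
              Nat.factorization_pow, Finsupp.smul_apply,
              Nat.factorization_eq_zero_of_not_dvd (fun hd =>
                hqp ((Nat.prime_dvd_prime_iff_eq hq hp).1 hd))] at h6
            simpa using h6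
          rw [h5, ← hK]
          exact relIndex_eq_index_of_coprime H K
            (by rw [hH, hK]; exact Nat.coprime_pow_primes _ _ hp hq (Ne.symm hqp))
      obtain ⟨p, q, r, hp, hq, hr, hpq, hpr, hqr, hpd, hqd, hrd⟩ := h3
      obtain ⟨H₁, hH₁⟩ := h p hp
      obtain ⟨H₂, hH₂⟩ := h q hq
      obtain ⟨H₃, hH₃⟩ := h r hr
      exact three_solvable_aux _ G le_rfl H₁ H₂ H₃ (hsolv p hp hpd H₁ hH₁) (hsolv q hq hqd H₂ hH₂)
        (hsolv r hr hrd H₃ hH₃)
        (exists_mul_of_coprime_index H₁ H₂
          (by rw [hH₁, hH₂]; exact Nat.coprime_pow_primes _ _ hp hq hpq))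
        (exists_mul_of_coprime_index H₁ H₃
          (by rw [hH₁, hH₃]; exact Nat.coprime_pow_primes _ _ hp hr hpr))
        (by rw [hH₂, hH₃]; exact Nat.coprime_pow_primes _ _ hq hr hqr)
    · obtain ⟨p, q, a, b, hp, hq, hn⟩ := exists_two_prime_pow _ hne h3
      exact Cfsg.Agent.S0144.result p q a b hp hq hn

end Cfsg.H1
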