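import Mathlib

set_option autoImplicit false

namespace Cfsg.H1

open Subgroup
open scoped Pointwise commutatorElement

variable {G : Type*} [Group G]

theorem comm_mul_right (x y z : G) : ⁅x, y * z⁆ = ⁅x, y⁆ * (y * ⁅x, z⁆ * y⁻¹) := by
  simp only [commutatorElement_def]; group

theorem comm_mul_left (x y z : G) : ⁅x * y, z⁆ = x * ⁅y, z⁆ * x⁻¹ * ⁅x, z⁆ := by
  simp only [commutatorElement_def]; group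

theorem conj_comm (g x y : G) : g * ⁅x, y⁆ * g⁻¹ = ⁅g * x * g⁻¹, g * y * g⁻¹⁆ := by
  simp only [commutatorElement_def]; group

theorem ito_key (A B : Subgroup G) (hA : ∀ x ∈ A, ∀ y ∈ A, x * y = y * x)
    (hB : ∀ x ∈ B, ∀ y ∈ B, x * y = y * x) (hAB : ∀ g : G, ∃ a ∈ A, ∃ b ∈ B, g = a * b)
    {a a₁ b b₁ : G} (ha : a ∈ A) (ha₁ : a₁ ∈ A) (hb : b ∈ B) (hb₁ : b₁ ∈ B) :
    (a₁ * b₁) * ⁅a, b⁆ * (a₁ * b₁)⁻¹ = (b₁ * a₁) * ⁅a, b⁆ * (b₁ * a₁)⁻¹ := by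
  have hBA : ∀ g : G, ∃ b ∈ B, ∃ a ∈ A, g = b * a := by
    intro g
    obtain ⟨a, ha, b, hb, h⟩ := hAB g⁻¹
    exact ⟨b⁻¹, B.inv_mem hb, a⁻¹, A.inv_mem ha, by rw [← mul_inv_rev, ← h, inv_inv]⟩
  obtain ⟨b₂, hb₂, a₂, ha₂, h2⟩ := hBA (a₁ * b * a₁⁻¹)
  obtain ⟨a₃, ha₃, b₃, hb₃, h3⟩ := hAB (b₁ * a * b₁⁻¹)
  have cA : ∀ x ∈ A, ∀ y ∈ A, x * y * x⁻¹ = y := by
    intro x hx y hy; rw [hA x hx y hy]; group
  have cB : ∀ x ∈ B, ∀ y ∈ B, x * y * x⁻¹ = y := by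
    intro x hx y hy; rw [hB x hx y hy]; group
  have oA : ∀ x ∈ A, ∀ y ∈ A, ⁅x, y⁆ = 1 := fun x hx y hy =>
    commutatorElement_eq_one_iff_mul_comm.2 (hA x hx y hy)
  have oB : ∀ x ∈ B, ∀ y ∈ B, ⁅x, y⁆ = 1 := fun x hx y hy =>
    commutatorElement_eq_one_iff_mul_comm.2 (hB x hx y hy)
  have e1 : (b₁ * a₁) * ⁅a, b⁆ * (b₁ * a₁)⁻¹ = ⁅a₃, b₂⁆ := by
    calc (b₁ * a₁) * ⁅a, b⁆ * (b₁ * a₁)⁻¹ = b₁ * (a₁ * ⁅a, b⁆ * a₁⁻¹) * b₁⁻¹ := by group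
      _ = b₁ * ⁅a, b₂ * a₂⁆ * b₁⁻¹ := by rw [conj_comm, cA a₁ ha₁ a ha, h2]
      _ = b₁ * ⁅a, b₂⁆ * b₁⁻¹ := by rw [comm_mul_right, oA a ha a₂ ha₂]; group
      _ = ⁅a₃ * b₃, b₂⁆ := by rw [conj_comm, cB b₁ hb₁ b₂ hb₂, h3]
      _ = ⁅a₃, b₂⁆ := by rw [comm_mul_left, oB b₃ hb₃ b₂ hb₂]; group
  have e2 : (a₁ * b₁) * ⁅a, b⁆ * (a₁ * b₁)⁻¹ = ⁅a₃, b₂⁆ := by
    calc (a₁ * b₁) * ⁅a, b⁆ * (a₁ * b₁)⁻¹ = a₁ * (b₁ * ⁅a, b⁆ * b₁⁻¹) * a₁⁻¹ := by group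
      _ = a₁ * ⁅a₃ * b₃, b⁆ * a₁⁻¹ := by rw [conj_comm, cB b₁ hb₁ b hb, h3]
      _ = a₁ * ⁅a₃, b⁆ * a₁⁻¹ := by rw [comm_mul_left, oB b₃ hb₃ b hb]; group
      _ = ⁅a₃, b₂ * a₂⁆ := by rw [conj_comm, cA a₁ ha₁ a₃ ha₃, h2]
      _ = ⁅a₃, b₂⁆ := by rw [comm_mul_right, oA a₃ ha₃ a₂ ha₂]; group
  rw [e1, e2]

/-- S0047: Itô's theorem. -/
theorem ito (A B : Subgroup G)
    [hA' : IsMulCommutative A] [hB' : IsMulCommutative B]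
    (hAB : ∀ g : G, ∃ a ∈ A, ∃ b ∈ B, g = a * b) : Group.IsSolvable G := by
  have hA : ∀ x ∈ A, ∀ y ∈ A, x * y = y * x := fun x hx y hy =>
    congrArg Subtype.val ((isMulCommutative_iff.1 hA') ⟨x, hx⟩ ⟨y, hy⟩)
  have hB : ∀ x ∈ B, ∀ y ∈ B, x * y = y * x := fun x hx y hy =>
    congrArg Subtype.val ((isMulCommutative_iff.1 hB') ⟨x, hx⟩ ⟨y, hy⟩)
  have hNc : IsMulCommutative (⁅A, B⁆ : Subgroup G) := by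
    rw [Subgroup.commutator_def]
    apply isMulCommutative_closure
    rintro _ ⟨a, ha, b, hb, rfl⟩ _ ⟨a₁, ha₁, b₁, hb₁, rfl⟩
    have key := ito_key A B hA hB hAB ha (A.inv_mem ha₁) hb (B.inv_mem hb₁)
    have h1 : ⁅a₁, b₁⁆ = (b₁⁻¹ * a₁⁻¹)⁻¹ * (a₁⁻¹ * b₁⁻¹) := by
      simp only [commutatorElement_def]; group
    rw [h1]
    calc ⁅a, b⁆ * ((b₁⁻¹ * a₁⁻¹)⁻¹ * (a₁⁻¹ * b₁⁻¹))
        = (b₁⁻¹ * a₁⁻¹)⁻¹ * ((b₁⁻¹ * a₁⁻¹) * ⁅a, b⁆ * (b₁⁻¹ * a₁⁻¹)⁻¹) * (a₁⁻¹ * b₁⁻¹) := by group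
      _ = (b₁⁻¹ * a₁⁻¹)⁻¹ * ((a₁⁻¹ * b₁⁻¹) * ⁅a, b⁆ * (a₁⁻¹ * b₁⁻¹)⁻¹) * (a₁⁻¹ * b₁⁻¹) := by
          rw [key]
      _ = _ := by group
  have hNn : (⁅A, B⁆ : Subgroup G).Normal := by
    rw [← normalizer_eq_top_iff, eq_top_iff]
    intro g _
    obtain ⟨a, ha, b, hb, rfl⟩ := hAB g
    exact mul_mem (normalizer_commutator_ge_left A B ha) (normalizer_commutator_ge_right A B hb)
  rw [Group.isSolvable_iff_subgroup_quotient ⁅A, B⁆]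
  constructor
  · exact Group.isSolvable_of_comm (isMulCommutative_iff.1 hNc)
  · apply Group.isSolvable_of_comm
    intro x y
    obtain ⟨g, rfl⟩ := QuotientGroup.mk'_surjective _ x
    obtain ⟨g', rfl⟩ := QuotientGroup.mk'_surjective _ y
    obtain ⟨a, ha, b, hb, rfl⟩ := hAB g
    obtain ⟨a', ha', b', hb', rfl⟩ := hAB g'
    have cAB : ∀ x ∈ A, ∀ y ∈ B, Commute (QuotientGroup.mk' ⁅A, B⁆ x) (QuotientGroup.mk' ⁅A, B⁆ y) := by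
      intro x hx y hy
      have : QuotientGroup.mk' ⁅A, B⁆ ⁅x, y⁆ = 1 := by
        rw [← MonoidHom.mem_ker, QuotientGroup.ker_mk']
        exact commutator_mem_commutator hx hy
      rw [map_commutatorElement, commutatorElement_eq_one_iff_mul_comm] at this
      exact this
    have cAA : ∀ x ∈ A, ∀ y ∈ A, Commute (QuotientGroup.mk' ⁅A, B⁆ x) (QuotientGroup.mk' ⁅A, B⁆ y) := by
      intro x hx y hy
      exact (show Commute x y from hA x hx y hy).map _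
    have cBB : ∀ x ∈ B, ∀ y ∈ B, Commute (QuotientGroup.mk' ⁅A, B⁆ x) (QuotientGroup.mk' ⁅A, B⁆ y) := by
      intro x hx y hy
      exact (show Commute x y from hB x hx y hy).map _
    rw [map_mul, map_mul]
    exact ((cAA a ha a' ha').mul_right (cAB a ha b' hb')).mul_left
      (((cAB a' ha' b hb).symm).mul_right (cBB b hb b' hb'))

end Cfsg.H1
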