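import Mathlib
import Cfsg.Agent.S1461
import Cfsg.Agent.H1.PxQ
import Cfsg.Agent.H1.PAut2
import Cfsg.Agent.H1.PLength
import Cfsg.Agent.H1.Fit
import Cfsg.Agent.Lib.Helper13.EA

/-! p'-subgroups normalized by a maximal elementary abelian p-subgroup (p-length one). -/

namespace Cfsg.H1

open Subgroup

variable {G : Type*} [Group G]

/-- internal form of: a `p'`-automorphism of a `p`-group (p odd) trivial on `Ω₁` is trivial. -/
theorem centralizes_of_omega [Finite G] {p : ℕ} [Fact p.Prime] (hp : p ≠ 2) (D : Subgroup G)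
    (hD : IsPGroup p D) (l : G) (hl : l ∈ normalizer (D : Set G)) (hcop : (orderOf l).Coprime p)
    (h : ∀ x ∈ D, x ^ p = 1 → l * x * l⁻¹ = x) : ∀ x ∈ D, l * x * l⁻¹ = x := by
  set a : MulAut D := D.normalizerMonoidHom ⟨l, hl⟩ with ha
  have hao : (orderOf a).Coprime p := by
    apply Nat.Coprime.coprime_dvd_left _ hcop
    have h1 : orderOf a ∣ orderOf (⟨l, hl⟩ : normalizer (D : Set G)) := orderOf_map_dvd _ _
    rwa [Subgroup.orderOf_mk] at h1
  have h1 : a = 1 := by
    apply aut_trivial_of_omega hp hD a hao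
    intro x hx
    apply Subtype.ext
    have : ((a x : D) : G) = l * x * l⁻¹ := rfl
    rw [this]
    apply h x x.2
    have := congrArg Subtype.val hx
    simpa using this
  intro x hx
  have h2 : a ⟨x, hx⟩ = ⟨x, hx⟩ := by rw [h1]; rfl
  exact congrArg Subtype.val h2

theorem le_pPrimeCore_of_maxElem [Finite G] [Group.IsSolvable G] (p : ℕ) [Fact p.Prime] (hp : p ≠ 2)
    (hpl : Cfsg.PLengthLE p 1 G) (E L : Subgroup G) (hE : Cfsg.IsElementaryAbelian p E)
    (hEmax : ∀ B : Subgroup G, Cfsg.IsElementaryAbelian p B → E ≤ B → B = E)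
    (hL : (Nat.card L).Coprime p) (hEL : E ≤ Subgroup.normalizer (L : Set G)) :
    L ≤ Cfsg.pPrimeCore p G := by
  have hEp : IsPGroup p E := Cfsg.Agent.Lib.Helper13.IsEA.isPGroup hE
  obtain ⟨S, hES⟩ := hEp.exists_le_sylow
  obtain ⟨K, hKn, hKc, hKN⟩ := Cfsg.Agent.S1461.frattini p hpl S
  set O := Cfsg.pPrimeCore p G with hO
  have hOn : O.Normal := pPrimeCore_normal p
  have hOc : (Nat.card O).Coprime p := pPrimeCore_coprime p
  have hKO : K ≤ O := le_pPrimeCore hKn hKc
  set N := normalizer ((S : Subgroup G) : Set G) with hN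
  have hON : O ⊔ N = ⊤ := top_le_iff.mp (hKN ▸ sup_le_sup_right hKO N)
  set M := O ⊔ L with hM
  have hMc : (Nat.card M).Coprime p := by
    have h1 := relIndex_mul_relIndex ⊥ O (O ⊔ L) (bot_le : (⊥ : Subgroup G) ≤ O) (le_sup_left : O ≤ O ⊔ L)
    rw [relIndex_bot_left, relIndex_bot_left, relIndex_sup_left] at h1
    rw [hM, ← h1]
    exact Nat.Coprime.mul_left hOc (Nat.Coprime.coprime_dvd_left (relIndex_dvd_card O L) hL)
  set L1 := M ⊓ N with hL1
  have hL1c : (Nat.card L1).Coprime p :=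
    Nat.Coprime.coprime_dvd_left (card_dvd_of_le inf_le_left) hMc
  have hSN : (S : Subgroup G) ≤ N := le_normalizer
  have hLle : L ≤ O ⊔ L1 := by
    intro l hl
    have h1 : l ∈ O ⊔ N := by rw [hON]; trivial
    rw [mem_sup_of_normal_left] at h1
    obtain ⟨o, ho, n, hn, rfl⟩ := h1
    have hn' : n ∈ L1 := by
      refine ⟨?_, hn⟩
      have : n = o⁻¹ * (o * n) := by group
      rw [this]
      exact M.mul_mem (M.inv_mem (le_sup_left (a := O) ho)) (le_sup_right (a := O) hl)
    exact mul_mem (le_sup_left (a := O) ho) (le_sup_right (a := O) hn')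
  -- E normalizes L1
  have hEM : ∀ e ∈ E, ∀ m ∈ M, e * m * e⁻¹ ∈ M := by
    intro e he m hm
    have h1 : e ∈ normalizer (O : Set G) ⊓ normalizer (L : Set G) :=
      ⟨by rw [normalizer_eq_top]; trivial, hEL he⟩
    have h2 := normalizer_inf_normalizer_le_normalizer_sup O L h1
    exact (mem_normalizer_iff.mp h2 m).mp hm
  have hSL1 : (S : Subgroup G) ⊓ L1 = ⊥ := by
    apply (disjoint_of_coprime_natCard _).eq_bot
    rw [S.card_eq_multiplicity]
    exact (Nat.Coprime.pow_right _ hL1c).symm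
  have hcomm : ∀ l ∈ L1, ∀ e ∈ E, l * e * l⁻¹ = e := by
    intro l hl e he
    have h1 : l * e * l⁻¹ * e⁻¹ ∈ (S : Subgroup G) ⊓ L1 := by
      refine mem_inf.mpr ⟨?_, ?_⟩
      · exact mul_mem ((mem_normalizer_iff.mp hl.2 e).mp (hES he)) (inv_mem (hES he))
      · have : l * e * l⁻¹ * e⁻¹ = l * (e * l⁻¹ * e⁻¹) := by group
        rw [this]
        refine L1.mul_mem hl ⟨hEM e he _ (M.inv_mem hl.1), ?_⟩
        exact N.mul_mem (N.mul_mem (hSN (hES he)) (N.inv_mem hl.2)) (N.inv_mem (hSN (hES he)))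
    rw [hSL1, mem_bot] at h1
    exact mul_inv_eq_one.mp h1
  set D := (S : Subgroup G) ⊓ centralizer (E : Set G) with hD
  have hDp : IsPGroup p D := S.isPGroup'.to_le inf_le_left
  have hconjD : ∀ l ∈ L1, ∀ x ∈ D, l * x * l⁻¹ ∈ D := by
    intro l hl x hx
    refine mem_inf.mpr ⟨(mem_normalizer_iff.mp hl.2 x).mp hx.1, ?_⟩
    rw [mem_centralizer_iff]
    intro e he
    have h1 := hcomm l hl e he
    have h2 : e * x = x * e := (mem_centralizer_iff.mp hx.2) e he
    calc e * (l * x * l⁻¹) = (l * e * l⁻¹) * (l * x * l⁻¹) := by rw [h1]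
      _ = l * (e * x) * l⁻¹ := by group
      _ = l * (x * e) * l⁻¹ := by rw [h2]
      _ = (l * x * l⁻¹) * (l * e * l⁻¹) := by group
      _ = (l * x * l⁻¹) * e := by rw [h1]
  have hL1D : ∀ l ∈ L1, l ∈ normalizer (D : Set G) := by
    intro l hl
    rw [mem_normalizer_iff]
    intro x
    refine ⟨hconjD l hl x, fun hx => ?_⟩
    have := hconjD l⁻¹ (L1.inv_mem hl) _ hx
    simpa [mul_assoc] using this
  have homega : ∀ x ∈ D, x ^ p = 1 → x ∈ E := by
    intro x hx hxp
    have h1 : Cfsg.IsElementaryAbelian p (E ⊔ zpowers x) := by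
      apply Cfsg.Agent.Lib.Helper13.IsEA.sup hE (Cfsg.Agent.Lib.Helper13.isEA_zpowers hxp)
      rw [zpowers_le]
      exact hx.2
    have h2 := hEmax _ h1 le_sup_left
    rw [← h2]
    exact le_sup_right (a := E) (mem_zpowers x)
  have hcentD : D ≤ centralizer (L1 : Set G) := by
    intro x hx
    rw [mem_centralizer_iff]
    intro l hl
    have hlo : (orderOf l).Coprime p :=
      Nat.Coprime.coprime_dvd_left (by
        have := orderOf_dvd_natCard (⟨l, hl⟩ : L1)
        rwa [Subgroup.orderOf_mk] at this) hL1c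
    have := centralizes_of_omega hp D hDp l (hL1D l hl) hlo
      (fun y hy hyp => hcomm l hl y (homega y hy hyp)) x hx
    rw [mul_inv_eq_iff_eq_mul] at this
    exact this
  have hL1S : L1 ≤ centralizer ((S : Subgroup G) : Set G) := by
    apply thompson_PxQ p E L1 S hEp hL1c S.isPGroup'
    · intro e he
      rw [mem_centralizer_iff]
      intro l hl
      have := hcomm l hl e he
      rw [mul_inv_eq_iff_eq_mul] at this
      exact this
    · exact hES.trans hSN
    · exact inf_le_right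
    · exact hcentD
  -- pass to the quotient
  have hL1O : L1 ≤ O := by
    have hf := QuotientGroup.mk'_surjective O
    have h1 := centralizer_pCore_le (G := G ⧸ O) p (pPrimeCore_quotient p)
    let Sbar : Sylow p (G ⧸ O) := S.mapSurjective hf
    have hn := pCore_normal (G := G ⧸ O) p
    have h2 : Cfsg.pCore p (G ⧸ O) ≤ Sbar := (pCore_isPGroup p).le_sylow_of_normal Sbar
    intro l hl
    have h3 : (QuotientGroup.mk' O) l ∈ centralizer (Cfsg.pCore p (G ⧸ O) : Set (G ⧸ O)) := by
      rw [mem_centralizer_iff]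
      intro y hy
      obtain ⟨s, hs, rfl⟩ := h2 hy
      have := (mem_centralizer_iff.mp (hL1S hl)) s hs
      rw [← map_mul, ← map_mul, this]
    have h4 := h1 h3
    obtain ⟨k, hk⟩ := (pCore_isPGroup (G := G ⧸ O) p) ⟨_, h4⟩
    have hk' : ((QuotientGroup.mk' O) l) ^ p ^ k = 1 := congrArg Subtype.val hk
    have hlo : (orderOf l).Coprime p :=
      Nat.Coprime.coprime_dvd_left (by
        have := orderOf_dvd_natCard (⟨l, hl⟩ : L1)
        rwa [Subgroup.orderOf_mk] at this) hL1c
    have h5 : orderOf ((QuotientGroup.mk' O) l) ∣ p ^ k := orderOf_dvd_of_pow_eq_one hk'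
    have h6 : orderOf ((QuotientGroup.mk' O) l) ∣ orderOf l := orderOf_map_dvd _ _
    have h7 : orderOf ((QuotientGroup.mk' O) l) = 1 :=
      Nat.eq_one_of_dvd_coprimes (Nat.Coprime.pow_right k hlo) h6 h5
    rw [orderOf_eq_one_iff] at h7
    exact (QuotientGroup.eq_one_iff l).mp h7
  exact hLle.trans (sup_le le_rfl hL1O)

end Cfsg.H1
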