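import Mathlib
import Cfsg.Agent.H1.NormalRank2

set_option autoImplicit false

namespace Cfsg.H1

open Subgroup

/-- S0636 -/
theorem exists_normal_rank_two_le {R : Type*} [Group R] [Finite R] {p : ℕ} [hp : Fact p.Prime]
    (h2 : p ≠ 2) (hR : IsPGroup p R) (S : Subgroup R) [S.Normal] (hnc : ¬ IsCyclic S) :
    ∃ A : Subgroup R, A ≤ S ∧ A.Normal ∧ (IsMulCommutative A ∧ ∀ a ∈ A, a ^ p = 1) ∧
      Nat.card A = p ^ 2 := by
  obtain ⟨A, hA⟩ := (Set.toFinite {A : Subgroup R | A ≤ S ∧ A.Normal ∧
    IsMulCommutative A}).exists_maximal ⟨⊥, bot_le, inferInstance, inferInstance⟩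
  obtain ⟨⟨hAS, hAn, hAc⟩, hmax⟩ := hA
  by_cases hcyc : IsCyclic A
  · have hAtop : A < S := by
      apply lt_of_le_of_ne hAS
      rintro rfl
      exact hnc hcyc
    obtain ⟨B, hBn, hAB, hBS, hrel⟩ := exists_normal_step hR A S hAtop
    have hBnc : ¬ IsCyclic B := by
      intro hB
      have h1 : B ≤ A := hmax ⟨hBS, hBn, inferInstance⟩ hAB
      rw [relIndex_eq_one.2 h1] at hrel
      exact hp.out.one_lt.ne hrel
    haveI : IsCyclic (A.subgroupOf B) :=
      isCyclic_of_surjective (subgroupOfEquivOfLe hAB).symm (subgroupOfEquivOfLe hAB).symm.surjective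
    obtain ⟨K, hK, hKcard⟩ := omega_of_cyclic_max' h2 (hR.to_subgroup B) hBnc (A.subgroupOf B)
      inferInstance hrel
    have hmem : ∀ x : R, x ∈ K.map B.subtype ↔ x ∈ B ∧ x ^ p = 1 := by
      intro x
      constructor
      · rintro ⟨y, hy, rfl⟩
        have : y ∈ (K : Set B) := hy
        rw [hK] at this
        exact ⟨y.2, by have := congrArg Subtype.val this; simpa using this⟩
      · rintro ⟨hx, hxp⟩
        refine ⟨⟨x, hx⟩, ?_, rfl⟩
        rw [hK]
        exact Subtype.ext (by simpa using hxp)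
    have hcard : Nat.card (K.map B.subtype) = p ^ 2 := by
      rw [card_map_of_injective B.subtype_injective, hKcard]
    refine ⟨K.map B.subtype, (map_subtype_le K).trans hBS, ?_,
      ⟨IsPGroup.isMulCommutative_of_card_eq_prime_sq hcard, ?_⟩, hcard⟩
    · constructor
      intro x hx g
      rw [hmem] at hx ⊢
      exact ⟨hBn.conj_mem x hx.1 g, by rw [conj_pow, hx.2]; group⟩
    · intro a ha
      exact ((hmem a).1 ha).2
  · letI : CommGroup A := { (inferInstance : Group A) with mul_comm := hAc.is_comm.comm }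
    obtain ⟨r, hr, x, y, hx, hy, hy1, hxy⟩ :=
      Cfsg.Agent.Lib.Helper13.exists_prime_torsion_of_not_isCyclic hcyc
    have hrp : r = p := by
      haveI := Fact.mk hr
      have h1 : orderOf y = r := orderOf_eq_prime hy hy1
      obtain ⟨k, hk⟩ := (IsPGroup.iff_orderOf.1 (hR.to_subgroup A)) y
      rw [h1] at hk
      have : r ∣ p ^ k := by rw [hk]
      exact (Nat.prime_dvd_prime_iff_eq hr hp.out).1 (hr.dvd_of_dvd_pow this)
    subst hrp
    set N := omegaAb r A with hN
    have hNA : N ≤ A := fun a ha => ha.1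
    haveI hNn : N.Normal := by
      constructor
      intro a ha g
      exact ⟨hAn.conj_mem a ha.1 g, by rw [conj_pow, ha.2]; group⟩
    have hxN : (x : R) ∈ N := ⟨x.2, by have := congrArg Subtype.val hx; simpa using this⟩
    have hyN : (y : R) ∈ N := ⟨y.2, by have := congrArg Subtype.val hy; simpa using this⟩
    have hy1' : (y : R) ≠ 1 := fun h => hy1 (Subtype.ext h)
    have hNbot : ⊥ < N := by
      rw [bot_lt_iff_ne_bot]
      intro h
      rw [h, mem_bot] at hyN
      exact hy1' hyN
    obtain ⟨E₁, hE₁n, -, hE₁N, hE₁⟩ := exists_normal_step hR ⊥ N hNbot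
    rw [relIndex_bot_left] at hE₁
    have hE₁lt : E₁ < N := by
      apply lt_of_le_of_ne hE₁N
      intro h
      have h1 : zpowers (y : R) = N := by
        apply eq_of_le_of_card_ge (zpowers_le.2 hyN)
        rw [← h, hE₁, Nat.card_zpowers]
        have : orderOf (y : R) = r := orderOf_eq_prime
          (by have := congrArg Subtype.val hy; simpa using this) hy1'
        rw [this]
      have h3 : (x : R)⁻¹ ∈ zpowers (y : R) := by rw [h1]; exact N.inv_mem hxN
      rw [← mem_powers_iff_mem_zpowers] at h3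
      obtain ⟨k, hk⟩ := h3
      apply hxy k
      apply Subtype.ext
      have hk' : (y : R) ^ k = (x : R)⁻¹ := hk
      simp [hk']
    obtain ⟨E, hEn, hE₁E, hEN, hE⟩ := exists_normal_step hR E₁ N hE₁lt
    have hcard : Nat.card E = r ^ 2 := by
      rw [← card_mul_relIndex_of_le' hE₁E, hE₁, hE, sq]
    exact ⟨E, (hEN.trans hNA).trans hAS, hEn, ⟨IsPGroup.isMulCommutative_of_card_eq_prime_sq hcard,
      fun a ha => (hEN ha).2⟩, hcard⟩

end Cfsg.H1
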