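import Mathlib
import Cfsg.Agent.H1.Meta6
import Cfsg.Prelude.Def_PLocal

set_option autoImplicit false

namespace Cfsg.H1

open Subgroup
open scoped commutatorElement

variable {G : Type*} [Group G]

/-- the derived subgroup of `⟨a, b⟩` lies in any subgroup normalized by `a, b` containing `[a,b]` -/
theorem commutator_closure_pair_le {N : Subgroup G} {a b : G} (ha : a ∈ normalizer (N : Set G))
    (hb : b ∈ normalizer (N : Set G)) (h : ⁅a, b⁆ ∈ N) :
    ⁅closure {a, b}, closure {a, b}⁆ ≤ N := by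
  have hH : closure {a, b} ≤ normalizer (N : Set G) := by
    rw [closure_le]
    rintro x (rfl | rfl)
    · exact ha
    · exact hb
  have hconj : ∀ g ∈ closure {a, b}, ∀ n ∈ N, g * n * g⁻¹ ∈ N := by
    intro g hg n hn
    exact (mem_normalizer_iff.1 (hH hg) n).1 hn
  have hconj' : ∀ g ∈ closure {a, b}, ∀ n ∈ N, g⁻¹ * n * g ∈ N := by
    intro g hg n hn
    have := hconj g⁻¹ (inv_mem hg) n hn
    simpa using this
  have hba : ⁅b, a⁆ ∈ N := by
    rw [← commutatorElement_inv a b]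
    exact inv_mem h
  -- first: [g, a], [g, b] ∈ N for all g
  have step1 : ∀ y : G, ⁅a, y⁆ ∈ N → ⁅b, y⁆ ∈ N → ∀ g ∈ closure {a, b}, ⁅g, y⁆ ∈ N := by
    intro y hay hby g hg
    induction hg using closure_induction with
    | mem x hx =>
      rcases hx with rfl | rfl
      · exact hay
      · exact hby
    | one => simp
    | mul x z hx hz ihx ihz =>
      have e : ⁅x * z, y⁆ = x * ⁅z, y⁆ * x⁻¹ * ⁅x, y⁆ := by
        simp only [commutatorElement_def]; group
      rw [e]
      exact mul_mem (hconj x hx _ ihz) ihx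
    | inv x hx ihx =>
      have e : ⁅x⁻¹, y⁆ = x⁻¹ * ⁅x, y⁆⁻¹ * x := by
        simp only [commutatorElement_def]; group
      rw [e]
      exact hconj' x hx _ (inv_mem ihx)
  have hga : ∀ g ∈ closure {a, b}, ⁅g, a⁆ ∈ N := step1 a (by simp) hba
  have hgb : ∀ g ∈ closure {a, b}, ⁅g, b⁆ ∈ N := step1 b h (by simp)
  rw [commutator_le]
  intro g hg y hy
  induction hy using closure_induction with
  | mem x hx =>
    rcases hx with rfl | rfl
    · exact hga g hg
    · exact hgb g hg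
  | one => simp
  | mul x z hx hz ihx ihz =>
    have e : ⁅g, x * z⁆ = ⁅g, x⁆ * (x * ⁅g, z⁆ * x⁻¹) := by
      simp only [commutatorElement_def]; group
    rw [e]
    exact mul_mem ihx (hconj x hx _ ihz)
  | inv x hx ihx =>
    have e : ⁅g, x⁻¹⁆ = x⁻¹ * ⁅g, x⁆⁻¹ * x := by
      simp only [commutatorElement_def]; group
    rw [e]
    exact hconj' x hx _ (inv_mem ihx)

/-- a maximal subgroup of a `p`-subgroup `K` through a given element -/
theorem exists_normal_max_of_mem [Finite G] {p : ℕ} [hp : Fact p.Prime] (hG : IsPGroup p G)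
    {K : Subgroup G} {x : G} (hx : x ∈ K) (hne : zpowers x ≠ K) :
    ∃ M : Subgroup G, M < K ∧ x ∈ M ∧ K ≤ normalizer (M : Set G) ∧ ⁅K, K⁆ ≤ M ∧
      ∀ d ∈ K, d ^ p ∈ M := by
  obtain ⟨M, ⟨hMK, hxM⟩, hmax⟩ := Set.Finite.exists_maximal
    (s := {M : Subgroup G | M < K ∧ x ∈ M}) (Set.toFinite _)
    ⟨zpowers x, lt_of_le_of_ne (zpowers_le.2 hx) hne, mem_zpowers x⟩
  obtain ⟨R₁, y, hlt1, hle1, hc, -, -⟩ := exists_step_up hG hMK
  have hR₁ : R₁ = K := by
    by_contra hcon
    have h1 : R₁ < K := lt_of_le_of_ne hle1 hcon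
    exact absurd (hmax ⟨h1, hlt1.le hxM⟩ hlt1.le) (not_le_of_gt hlt1)
  subst hR₁
  have hrel : M.relIndex R₁ = p := by
    have := card_mul_relIndex_of_le hMK.le
    rw [hc] at this
    exact Nat.eq_of_mul_eq_mul_left Nat.card_pos this
  haveI hnor : (M.subgroupOf R₁).Normal :=
    normal_of_index_prime_pgroup (hG.to_subgroup R₁) (M.subgroupOf R₁) hrel
  refine ⟨M, hMK, hxM, ?_, ?_, ?_⟩
  rotate_left 2
  · intro d hd
    have := (M.subgroupOf R₁).pow_index_mem ⟨d, hd⟩
    rw [mem_subgroupOf] at this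
    have e : (M.subgroupOf R₁).index = p := hrel
    rw [e] at this
    simpa using this
  · exact normal_subgroupOf_iff_le_normalizer hMK.le |>.1 hnor
  · have hcard : Nat.card (R₁ ⧸ M.subgroupOf R₁) = p := by
      rw [← index_eq_card]; exact hrel
    haveI hcyc : IsCyclic (R₁ ⧸ M.subgroupOf R₁) := isCyclic_of_prime_card hcard
    have hcomm : IsMulCommutative (R₁ ⧸ M.subgroupOf R₁) := IsCyclic.isMulCommutative
    have h1 := Subgroup.Normal.quotient_commutative_iff_commutator_le.1 hcomm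
    rw [← map_subtype_commutator]
    intro z hz
    obtain ⟨w, hw, rfl⟩ := hz
    exact mem_subgroupOf.1 (h1 hw)

/-- regularity at level `k` -/
def RegAt (p k : ℕ) (G : Type*) [Group G] : Prop :=
  ∀ a b : G, ∃ c ∈ Cfsg.powerClosure p k ⁅closure ({a, b} : Set G), closure ({a, b} : Set G)⁆,
    (a * b) ^ (p ^ k) = a ^ (p ^ k) * b ^ (p ^ k) * c

theorem map_powerClosure {G' : Type*} [Group G'] (f : G →* G') (p n : ℕ) (H : Subgroup G) :
    (Cfsg.powerClosure p n H).map f = Cfsg.powerClosure p n (H.map f) := by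
  unfold Cfsg.powerClosure
  rw [MonoidHom.map_closure]
  congr 1
  ext y
  constructor
  · rintro ⟨_, ⟨x, hx, rfl⟩, rfl⟩
    exact ⟨f x, mem_map_of_mem f hx, by rw [map_pow]⟩
  · rintro ⟨_, ⟨x, hx, rfl⟩, rfl⟩
    exact ⟨x ^ p ^ n, ⟨x, hx, rfl⟩, by rw [map_pow]⟩

theorem map_powerClosure_comm_pair {G' : Type*} [Group G'] (f : G →* G') (p n : ℕ) (a b : G) :
    (Cfsg.powerClosure p n ⁅closure ({a, b} : Set G), closure ({a, b} : Set G)⁆).map f =
      Cfsg.powerClosure p n ⁅closure ({f a, f b} : Set G'), closure ({f a, f b} : Set G')⁆ := by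
  rw [map_powerClosure, map_commutator, MonoidHom.map_closure, Set.image_pair]

theorem RegAt.of_surjective {G' : Type*} [Group G'] {p k : ℕ} (h : RegAt p k G) (f : G →* G')
    (hf : Function.Surjective f) : RegAt p k G' := by
  intro a b
  obtain ⟨a, rfl⟩ := hf a
  obtain ⟨b, rfl⟩ := hf b
  obtain ⟨c, hc, e⟩ := h a b
  refine ⟨f c, ?_, ?_⟩
  · rw [← map_powerClosure_comm_pair]
    exact mem_map_of_mem f hc
  · rw [← map_mul, ← map_pow, e]
    simp

theorem RegAt.of_injective {G' : Type*} [Group G'] {p k : ℕ} (h : RegAt p k G') (f : G →* G')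
    (hf : Function.Injective f) : RegAt p k G := by
  intro a b
  obtain ⟨c, hc, e⟩ := h (f a) (f b)
  rw [← map_powerClosure_comm_pair] at hc
  obtain ⟨c', hc', rfl⟩ := hc
  refine ⟨c', hc', ?_⟩
  apply hf
  rw [map_pow, map_mul, e]
  simp

theorem RegAt.subgroup {p k : ℕ} (h : RegAt p k G) (H : Subgroup G) : RegAt p k H :=
  h.of_injective H.subtype H.subtype_injective

theorem RegAt.quotient {p k : ℕ} (h : RegAt p k G) (N : Subgroup G) [N.Normal] :
    RegAt p k (G ⧸ N) :=
  h.of_surjective (QuotientGroup.mk' N) (QuotientGroup.mk'_surjective N)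

theorem powerClosure_eq_bot {p n : ℕ} {H : Subgroup G} (h : ∀ x ∈ H, x ^ p ^ n = 1) :
    Cfsg.powerClosure p n H = ⊥ := by
  unfold Cfsg.powerClosure
  rw [closure_eq_bot_iff]
  rintro y ⟨x, hx, rfl⟩
  exact h x hx

theorem powerClosure_mono {p n : ℕ} {H K : Subgroup G} (h : H ≤ K) :
    Cfsg.powerClosure p n H ≤ Cfsg.powerClosure p n K := by
  unfold Cfsg.powerClosure
  apply Subgroup.closure_mono
  rintro y ⟨x, hx, rfl⟩
  exact ⟨x, h hx, rfl⟩

theorem pow_mem_powerClosure {p n : ℕ} {H : Subgroup G} {x : G} (h : x ∈ H) :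
    x ^ p ^ n ∈ Cfsg.powerClosure p n H :=
  subset_closure ⟨x, h, rfl⟩

theorem powerClosure_le {p n : ℕ} (H : Subgroup G) : Cfsg.powerClosure p n H ≤ H := by
  unfold Cfsg.powerClosure
  rw [closure_le]
  rintro y ⟨x, hx, rfl⟩
  exact pow_mem hx _

theorem le_normalizer_of_conj_mem {N K : Subgroup G} (h : ∀ g ∈ K, ∀ u ∈ N, g * u * g⁻¹ ∈ N) :
    K ≤ normalizer (N : Set G) := by
  intro g hg
  rw [mem_normalizer_iff]
  intro u
  refine ⟨h g hg u, fun hu => ?_⟩
  have := h g⁻¹ (inv_mem hg) _ hu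
  simpa [mul_assoc] using this

theorem le_normalizer_powerClosure_commutator (p n : ℕ) (H : Subgroup G) :
    H ≤ normalizer ((Cfsg.powerClosure p n ⁅H, H⁆ : Subgroup G) : Set G) := by
  apply le_normalizer_of_conj_mem
  intro g hg u hu
  unfold Cfsg.powerClosure at hu ⊢
  induction hu using closure_induction with
  | mem x hx =>
    obtain ⟨d, hd, rfl⟩ := hx
    refine subset_closure ⟨g * d * g⁻¹, ?_, by rw [conj_pow]⟩
    have e : g * d * g⁻¹ = ⁅g, d⁆ * d := by rw [commutatorElement_def]; group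
    rw [e]
    exact mul_mem (commutator_mem_commutator hg (commutator_le_self H hd)) hd
  | one => simp
  | mul x y _ _ hx hy =>
    have : g * (x * y) * g⁻¹ = (g * x * g⁻¹) * (g * y * g⁻¹) := by group
    rw [this]; exact mul_mem hx hy
  | inv x _ hx =>
    have : g * x⁻¹ * g⁻¹ = (g * x * g⁻¹)⁻¹ := by group
    rw [this]; exact inv_mem hx

end Cfsg.H1
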