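import Mathlib
import Cfsg.Agent.H1.Regular1

set_option autoImplicit false

namespace Cfsg.H1

open Subgroup
open scoped commutatorElement

variable {G : Type*} [Group G] [Finite G] {p k : ℕ} [hp : Fact p.Prime]

theorem zpowers_ne_closure_pair {x y : G} (h : ¬ Commute x y) : zpowers x ≠ closure {x, y} := by
  intro e
  have hy : y ∈ zpowers x := by
    rw [e]
    exact subset_closure (by simp)
  obtain ⟨j, rfl⟩ := hy
  exact h ((Commute.refl x).zpow_right j)

theorem comm_eq_mul_conj_inv (x y : G) : ⁅x, y⁆ = x * (y * x⁻¹ * y⁻¹) := by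
  rw [commutatorElement_def]; group

theorem RegAt.omega_aux (hG : IsPGroup p G) (h : RegAt p k G) (K : Subgroup G) :
    ∀ x ∈ K, ∀ y ∈ K, x ^ p ^ k = 1 → y ^ p ^ k = 1 → (x * y) ^ p ^ k = 1 := by
  induction K using WellFoundedLT.induction with
  | ind K ih =>
    intro x hx y hy hxk hyk
    by_cases hcomm : Commute x y
    · rw [hcomm.mul_pow, hxk, hyk, one_mul]
    have hxH : x ∈ closure {x, y} := subset_closure (by simp)
    have hyH : y ∈ closure {x, y} := subset_closure (by simp)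
    have hHK : closure {x, y} ≤ K := by
      rw [closure_le]
      rintro z (rfl | rfl)
      · exact hx
      · exact hy
    obtain ⟨M, hMH, hxM, hnorm, -, -⟩ :=
      exists_normal_max_of_mem hG hxH (zpowers_ne_closure_pair hcomm)
    have ihM := ih M (lt_of_lt_of_le hMH hHK)
    let Ω : Subgroup G :=
      { carrier := {u | u ∈ M ∧ u ^ p ^ k = 1}
        mul_mem' := fun {u v} hu hv => ⟨mul_mem hu.1 hv.1, ihM u hu.1 v hv.1 hu.2 hv.2⟩
        one_mem' := ⟨one_mem _, one_pow _⟩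
        inv_mem' := fun {u} hu => ⟨inv_mem hu.1, by rw [inv_pow, hu.2, inv_one]⟩ }
    have hΩ : ∀ u, u ∈ Ω ↔ (u ∈ M ∧ u ^ p ^ k = 1) := fun u => Iff.rfl
    have hnormΩ : ∀ g ∈ closure {x, y}, g ∈ normalizer (Ω : Set G) := by
      intro g hg
      rw [mem_normalizer_iff]
      intro u
      rw [hΩ, hΩ, ← mem_normalizer_iff.1 (hnorm hg) u, conj_pow]
      constructor
      · rintro ⟨h1, h2⟩
        exact ⟨h1, by rw [h2]; simp⟩
      · rintro ⟨h1, h2⟩
        refine ⟨h1, ?_⟩
        have : u ^ p ^ k = g⁻¹ * (g * u ^ p ^ k * g⁻¹) * g := by group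
        rw [this, h2]; simp
    have hxΩ : x ∈ Ω := ⟨hxM, hxk⟩
    have hcΩ : ⁅x, y⁆ ∈ Ω := by
      rw [comm_eq_mul_conj_inv]
      exact mul_mem hxΩ ((mem_normalizer_iff.1 (hnormΩ y hyH) _).1 (inv_mem hxΩ))
    have hder := commutator_closure_pair_le (hnormΩ x hxH) (hnormΩ y hyH) hcΩ
    obtain ⟨c, hc, e⟩ := h x y
    rw [powerClosure_eq_bot (fun u hu => (hder hu).2), mem_bot] at hc
    rw [e, hxk, hyk, hc]
    simp

/-- the subgroup of elements of order dividing `p^k` in a group regular at level `k` -/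
def RegAt.omega (hG : IsPGroup p G) (h : RegAt p k G) : Subgroup G where
  carrier := {u | u ^ p ^ k = 1}
  mul_mem' := fun {u v} hu hv => h.omega_aux hG ⊤ u (mem_top u) v (mem_top v) hu hv
  one_mem' := one_pow _
  inv_mem' := fun {u} hu => by
    show (u⁻¹) ^ p ^ k = 1
    rw [inv_pow, show u ^ p ^ k = 1 from hu, inv_one]

theorem RegAt.mem_omega (hG : IsPGroup p G) (h : RegAt p k G) (u : G) :
    u ∈ h.omega hG ↔ u ^ p ^ k = 1 := Iff.rfl

instance RegAt.omega_characteristic (hG : IsPGroup p G) (h : RegAt p k G) :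
    (h.omega hG).Characteristic := by
  rw [characteristic_iff_le_comap]
  intro φ u hu
  rw [mem_comap, h.mem_omega]
  rw [h.mem_omega] at hu
  have : (φ : G →* G) u = φ u := rfl
  rw [MulEquiv.coe_toMonoidHom, ← map_pow, hu, map_one]

theorem RegAt.mul_pow_of_comm_mem (hG : IsPGroup p G) (h : RegAt p k G) {x y : G}
    (hc : ⁅x, y⁆ ^ p ^ k = 1) : (x * y) ^ p ^ k = x ^ p ^ k * y ^ p ^ k := by
  haveI : (h.omega hG).Normal := inferInstance
  have hn : ∀ g : G, g ∈ normalizer ((h.omega hG : Subgroup G) : Set G) := by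
    intro g
    rw [normalizer_eq_top]
    exact mem_top g
  have hder := commutator_closure_pair_le (hn x) (hn y) ((h.mem_omega hG _).2 hc)
  obtain ⟨c, hc', e⟩ := h x y
  rw [powerClosure_eq_bot (fun u hu => (h.mem_omega hG u).1 (hder hu)), mem_bot] at hc'
  rw [e, hc', mul_one]

theorem RegAt.pow_eq_of_mul_inv (hG : IsPGroup p G) (h : RegAt p k G) {a b : G}
    (hab : (a * b⁻¹) ^ p ^ k = 1) : a ^ p ^ k = b ^ p ^ k := by
  haveI : (h.omega hG).Normal := inferInstance
  have hu : a * b⁻¹ ∈ h.omega hG := hab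
  have hc : ⁅a * b⁻¹, b⁆ ∈ h.omega hG := by
    rw [comm_eq_mul_conj_inv]
    exact mul_mem hu (Normal.conj_mem inferInstance _ (inv_mem hu) b)
  have := h.mul_pow_of_comm_mem hG hc
  rw [hab, one_mul] at this
  rw [← this]
  congr 1
  group

theorem RegAt.mul_inv_aux (hG : IsPGroup p G) (h : RegAt p k G) (K : Subgroup G) :
    ∀ x ∈ K, ∀ y ∈ K, x ^ p ^ k = y ^ p ^ k → (x * y⁻¹) ^ p ^ k = 1 := by
  induction K using WellFoundedLT.induction with
  | ind K ih =>
    intro x hx y hy hxy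
    by_cases hcomm : Commute x y
    · rw [(hcomm.inv_right).mul_pow, hxy, inv_pow, mul_inv_cancel]
    have hxH : x ∈ closure {x, y} := subset_closure (by simp)
    have hyH : y ∈ closure {x, y} := subset_closure (by simp)
    have hHK : closure {x, y} ≤ K := by
      rw [closure_le]
      rintro z (rfl | rfl)
      · exact hx
      · exact hy
    obtain ⟨M, hMH, hxM, hnorm, -, -⟩ :=
      exists_normal_max_of_mem hG hxH (zpowers_ne_closure_pair hcomm)
    have ihM := ih M (lt_of_lt_of_le hMH hHK)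
    have h1 : y * x * y⁻¹ ∈ M := (mem_normalizer_iff.1 (hnorm hyH) x).1 hxM
    have h2 : x ^ p ^ k = (y * x * y⁻¹) ^ p ^ k := by
      rw [conj_pow, hxy]; group
    have h3 := ihM x hxM _ h1 h2
    have h4 : ⁅x, y⁆ ^ p ^ k = 1 := by
      rw [comm_eq_mul_conj_inv]
      have : y * x⁻¹ * y⁻¹ = (y * x * y⁻¹)⁻¹ := by group
      rw [this]
      exact h3
    have h5 : ⁅x, y⁻¹⁆ ^ p ^ k = 1 := by
      have e : ⁅x, y⁻¹⁆ = y⁻¹ * ⁅x, y⁆⁻¹ * (y⁻¹)⁻¹ := by
        simp only [commutatorElement_def]; group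
      rw [e, conj_pow, inv_pow, h4]
      simp
    rw [h.mul_pow_of_comm_mem hG h5, hxy, inv_pow, mul_inv_cancel]

theorem RegAt.pow_eq_iff (hG : IsPGroup p G) (h : RegAt p k G) (a b : G) :
    a ^ p ^ k = b ^ p ^ k ↔ (a * b⁻¹) ^ p ^ k = 1 :=
  ⟨h.mul_inv_aux hG ⊤ a (mem_top a) b (mem_top b), h.pow_eq_of_mul_inv hG⟩

theorem RegAt.pow_commute_iff (hG : IsPGroup p G) (h : RegAt p k G) (a b : G) :
    a ^ p ^ k * b = b * a ^ p ^ k ↔ (a⁻¹ * b⁻¹ * a * b) ^ p ^ k = 1 := by
  have h1 : a ^ p ^ k * b = b * a ^ p ^ k ↔ (b⁻¹ * a * b) ^ p ^ k = a ^ p ^ k := by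
    have e : (b⁻¹ * a * b) ^ p ^ k = b⁻¹ * a ^ p ^ k * b := by
      have := conj_pow (a := b⁻¹) (b := a) (i := p ^ k)
      simpa using this
    rw [e]
    constructor
    · intro h2
      rw [mul_assoc, h2]; group
    · intro h2
      calc a ^ p ^ k * b = b * (b⁻¹ * a ^ p ^ k * b) := by group
        _ = b * a ^ p ^ k := by rw [h2]
  rw [h1, h.pow_eq_iff hG]
  have e : b⁻¹ * a * b * a⁻¹ = a * (a⁻¹ * b⁻¹ * a * b) * a⁻¹ := by group
  rw [e, conj_pow]
  constructor
  · intro h2
    have : (a⁻¹ * b⁻¹ * a * b) ^ p ^ k = a⁻¹ * (a * (a⁻¹ * b⁻¹ * a * b) ^ p ^ k * a⁻¹) * a := by group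
    rw [this, h2]; simp
  · intro h2
    rw [h2]; simp

/-- in a group regular at level `k`, products of `p^k`-th powers are `p^k`-th powers -/
theorem RegAt.mem_powerClosure (hG : IsPGroup p G) (h : RegAt p k G) (K : Subgroup G) :
    ∀ u ∈ Cfsg.powerClosure p k K, ∃ z ∈ K, u = z ^ p ^ k := by
  induction K using WellFoundedLT.induction with
  | ind K ih =>
    intro u hu
    unfold Cfsg.powerClosure at hu
    induction hu using closure_induction with
    | mem x hx => exact hx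
    | one => exact ⟨1, one_mem _, by simp⟩
    | inv x _ ihx =>
      obtain ⟨z, hz, rfl⟩ := ihx
      exact ⟨z⁻¹, inv_mem hz, by rw [inv_pow]⟩
    | mul u v _ _ ihu ihv =>
      obtain ⟨x, hx, rfl⟩ := ihu
      obtain ⟨y, hy, rfl⟩ := ihv
      by_cases hcomm : Commute x y
      · exact ⟨x * y, mul_mem hx hy, by rw [hcomm.mul_pow]⟩
      have hxH : x ∈ closure {x, y} := subset_closure (by simp)
      have hyH : y ∈ closure {x, y} := subset_closure (by simp)
      have hHK : closure {x, y} ≤ K := by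
        rw [closure_le]
        rintro z (rfl | rfl)
        · exact hx
        · exact hy
      have hne : zpowers (x * y) ≠ closure {x, y} := by
        intro e
        apply hcomm
        have h1 : x ∈ zpowers (x * y) := e ▸ hxH
        have h2 : y ∈ zpowers (x * y) := e ▸ hyH
        obtain ⟨i, hi⟩ := h1
        obtain ⟨j, hj⟩ := h2
        have h3 : Commute ((x * y) ^ i) ((x * y) ^ j) :=
          ((Commute.refl (x * y)).zpow_left i).zpow_right j
        simp only at hi hj
        rwa [hi, hj] at h3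
      obtain ⟨M, hMH, hxyM, -, hder, -⟩ := exists_normal_max_of_mem hG (mul_mem hxH hyH) hne
      have hMK : M < K := lt_of_lt_of_le hMH hHK
      obtain ⟨c, hc, e⟩ := h x y
      obtain ⟨d, hd, hd'⟩ := ih _ (lt_of_le_of_lt hder hMK) c⁻¹ (inv_mem hc)
      have h3 : (x * y) ^ p ^ k * d ^ p ^ k ∈ Cfsg.powerClosure p k M :=
        mul_mem (pow_mem_powerClosure hxyM) (pow_mem_powerClosure (hder hd))
      obtain ⟨z, hz, hz'⟩ := ih M hMK _ h3
      refine ⟨z, hMK.le hz, ?_⟩
      rw [← hz', ← hd', e]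
      group

end Cfsg.H1
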