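import Mathlib
import Cfsg.Agent.H1.Regular2

set_option autoImplicit false

namespace Cfsg.H1

open Subgroup
open scoped commutatorElement

variable {G : Type*} [Group G]

theorem isRegularPGroup_iff {p : ℕ} :
    Cfsg.IsRegularPGroup p G ↔ IsPGroup p G ∧ ∀ n, RegAt p n G :=
  ⟨fun h => ⟨h.1, fun n a b => h.2 a b n⟩, fun h => ⟨h.1, fun a b n => h.2 n a b⟩⟩

theorem closure_pair_le {H : Subgroup G} {a b : G} (ha : a ∈ H) (hb : b ∈ H) :
    closure {a, b} ≤ H := by
  rw [closure_le]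
  rintro z (rfl | rfl)
  · exact ha
  · exact hb

/-- `[w, x^(p^k)] ∈ ℧_k(H')` -/
theorem RegAt.comm_pow_mem {p k : ℕ} (h : RegAt p k G) {H : Subgroup G} {w x : G} (hw : w ∈ H)
    (hx : x ∈ H) : ⁅w, x ^ p ^ k⁆ ∈ Cfsg.powerClosure p k ⁅H, H⁆ := by
  obtain ⟨c, hc, e⟩ := h (w * x * w⁻¹) x⁻¹
  have h1 : closure {w * x * w⁻¹, x⁻¹} ≤ H :=
    closure_pair_le (mul_mem (mul_mem hw hx) (inv_mem hw)) (inv_mem hx)
  have hc' : c ∈ Cfsg.powerClosure p k ⁅H, H⁆ := powerClosure_mono (commutator_mono h1 h1) hc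
  have h2 : w * x * w⁻¹ * x⁻¹ = ⁅w, x⁆ := by rw [commutatorElement_def]
  have h3 : ⁅w, x ^ p ^ k⁆ = (w * x * w⁻¹) ^ p ^ k * x⁻¹ ^ p ^ k := by
    rw [commutatorElement_def, conj_pow, inv_pow]
  have h4 : (w * x * w⁻¹) ^ p ^ k * x⁻¹ ^ p ^ k = ⁅w, x⁆ ^ p ^ k * c⁻¹ := by
    rw [← h2, e]; group
  rw [h3, h4]
  exact mul_mem (pow_mem_powerClosure (commutator_mem_commutator hw hx)) (inv_mem hc')

section fin

variable [Finite G] {p : ℕ} [hp : Fact p.Prime]

theorem RegAt.agemo (hG : IsPGroup p G) {n : ℕ} (h : RegAt p n G) (H : Subgroup G) :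
    {y : G | ∃ x ∈ H, y = x ^ (p ^ n)} = (Cfsg.powerClosure p n H : Set G) ∧
      ⁅Cfsg.powerClosure p n H, Cfsg.powerClosure p n H⁆ ≤ Cfsg.powerClosure p n ⁅H, H⁆ := by
  constructor
  · ext y
    constructor
    · rintro ⟨x, hx, rfl⟩
      exact pow_mem_powerClosure hx
    · intro hy
      exact h.mem_powerClosure hG H y hy
  · rw [commutator_le]
    intro g₁ hg₁ g₂ hg₂
    obtain ⟨x, hx, rfl⟩ := h.mem_powerClosure hG H g₂ hg₂
    exact h.comm_pow_mem (powerClosure_le H hg₁) hx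

theorem powerClosure_one_lt (hG : IsPGroup p G) {D : Subgroup G} (hD : D ≠ ⊥) :
    Cfsg.powerClosure p 1 D < D := by
  obtain ⟨M, hMD, -, -, -, hpow⟩ := exists_normal_max_of_mem hG (one_mem D)
    (by rw [zpowers_one_eq_bot]; exact hD.symm)
  refine lt_of_le_of_lt ?_ hMD
  unfold Cfsg.powerClosure
  rw [closure_le]
  rintro y ⟨x, hx, rfl⟩
  rw [pow_one]
  exact hpow x hx

theorem commute_of_regAt_two (hG : IsPGroup 2 G) (h : RegAt 2 1 G) (a b : G) : a * b = b * a := by
  obtain ⟨c, hc, e⟩ := h a b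
  set H := closure {a, b} with hH
  have haH : a ∈ H := subset_closure (by simp)
  have hbH : b ∈ H := subset_closure (by simp)
  set N := Cfsg.powerClosure 2 1 ⁅H, H⁆ with hN
  have hnorm := le_normalizer_powerClosure_commutator 2 1 H
  have h1 : ⁅a, b⁆ ∈ N := by
    have e1 : ⁅a, b⁆ = (a * b * b) * c⁻¹ * (a * b * b)⁻¹ := by
      have e2 : a * b * (a * b) = a * a * (b * b) * c := by
        have := e
        simp only [pow_one, pow_two] at this
        exact this
      have e3 : c = b⁻¹ * b⁻¹ * a⁻¹ * b * a * b := by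
        calc c = (a * a * (b * b))⁻¹ * (a * a * (b * b) * c) := by group
          _ = (a * a * (b * b))⁻¹ * (a * b * (a * b)) := by rw [e2]
          _ = b⁻¹ * b⁻¹ * a⁻¹ * b * a * b := by group
      rw [e3, commutatorElement_def]
      group
    rw [e1]
    exact (mem_normalizer_iff.1 (hnorm (mul_mem (mul_mem haH hbH) hbH)) _).1 (inv_mem hc)
  have h2 : ⁅H, H⁆ ≤ N := commutator_closure_pair_le (hnorm haH) (hnorm hbH) h1
  have h3 : ⁅H, H⁆ = ⊥ := by
    by_contra hne
    haveI : Fact (Nat.Prime 2) := ⟨Nat.prime_two⟩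
    exact absurd h2 (not_le_of_gt (powerClosure_one_lt hG hne))
  have h4 : ⁅a, b⁆ ∈ ⁅H, H⁆ := commutator_mem_commutator haH hbH
  rw [h3, mem_bot, commutatorElement_eq_one_iff_mul_comm] at h4
  exact h4

/-- power formula when the derived subgroup has small exponent -/
theorem RegAt.mul_pow_of_exp (hG : IsPGroup p G) (h : RegAt p 1 G) (n : ℕ) :
    ∀ a b : G, (∀ d ∈ ⁅closure {a, b}, closure {a, b}⁆, d ^ p ^ n = 1) →
      (a * b) ^ p ^ n = a ^ p ^ n * b ^ p ^ n := by
  induction n with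
  | zero =>
    intro a b _
    simp
  | succ n ih =>
    intro a b hexp
    set H := closure {a, b} with hH
    have haH : a ∈ H := subset_closure (by simp)
    have hbH : b ∈ H := subset_closure (by simp)
    set W := Cfsg.powerClosure p 1 ⁅H, H⁆ with hW
    set T := Cfsg.powerClosure p 1 H with hT
    have hWexp : ∀ w ∈ W, w ^ p ^ n = 1 := by
      intro w hw
      obtain ⟨d, hd, rfl⟩ := h.mem_powerClosure hG _ w hw
      rw [← pow_mul, pow_one, ← pow_succ']
      exact hexp d hd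
    have hnorm := le_normalizer_powerClosure_commutator p 1 H
    have hTH : T ≤ H := powerClosure_le H
    have hWT : W ≤ T := powerClosure_mono (commutator_le_self H)
    have key : ∀ u ∈ T, ∀ v ∈ T, (u * v) ^ p ^ n = u ^ p ^ n * v ^ p ^ n := by
      intro u hu v hv
      apply ih
      obtain ⟨x, hx, rfl⟩ := h.mem_powerClosure hG _ v hv
      have h1 : ⁅u, x ^ p ^ 1⁆ ∈ W := h.comm_pow_mem (hTH hu) hx
      have h2 := commutator_closure_pair_le (hnorm (hTH hu)) (hnorm (hTH hv)) h1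
      intro d hd
      exact hWexp d (h2 hd)
    obtain ⟨c, hc, e⟩ := h a b
    have ha' : a ^ p ^ 1 ∈ T := pow_mem_powerClosure haH
    have hb' : b ^ p ^ 1 ∈ T := pow_mem_powerClosure hbH
    have e1 : (a * b) ^ p ^ (n + 1) = ((a * b) ^ p ^ 1) ^ p ^ n := by
      rw [← pow_mul, pow_one, ← pow_succ']
    rw [e1, e, key _ (mul_mem ha' hb') c (hWT hc), key _ ha' _ hb', hWexp c hc, mul_one,
      ← pow_mul, ← pow_mul, pow_one, ← pow_succ']

theorem RegAt.mul_pow_mod (hG : IsPGroup p G) (h : RegAt p 1 G) (n : ℕ) (N : Subgroup G)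
    [N.Normal] (a b : G) (hexp : ∀ d ∈ ⁅closure {a, b}, closure {a, b}⁆, d ^ p ^ n ∈ N) :
    (a ^ p ^ n * b ^ p ^ n)⁻¹ * (a * b) ^ p ^ n ∈ N := by
  have h1 := (h.quotient N).mul_pow_of_exp (hG.to_quotient N) n (QuotientGroup.mk' N a)
    (QuotientGroup.mk' N b) (by
      intro d hd
      rw [← Set.image_pair, ← MonoidHom.map_closure, ← map_commutator] at hd
      obtain ⟨d', hd', rfl⟩ := hd
      rw [← map_pow, QuotientGroup.mk'_apply, QuotientGroup.eq_one_iff]
      exact hexp d' hd')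
  rw [← QuotientGroup.eq_one_iff, ← QuotientGroup.mk'_apply]
  simp only [map_mul, map_inv, map_pow] at h1 ⊢
  rw [h1]
  group

theorem RegAt.of_one (hG : IsPGroup p G) (h : RegAt p 1 G) (n : ℕ) : RegAt p n G := by
  intro a b
  set H := closure {a, b} with hH
  have haH : a ∈ H := subset_closure (by simp)
  have hbH : b ∈ H := subset_closure (by simp)
  set N := Cfsg.powerClosure p n ⁅H, H⁆ with hN
  have hNH : N ≤ H := (powerClosure_le _).trans (commutator_le_self H)
  haveI : (N.subgroupOf H).Normal :=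
    (normal_subgroupOf_iff_le_normalizer hNH).2 (le_normalizer_powerClosure_commutator p n H)
  have h1 := (h.subgroup H).mul_pow_mod (hG.to_subgroup H) n (N.subgroupOf H) ⟨a, haH⟩ ⟨b, hbH⟩ (by
    intro d hd
    rw [mem_subgroupOf]
    have h2 := mem_map_of_mem H.subtype hd
    rw [map_commutator, MonoidHom.map_closure, Set.image_pair] at h2
    have h3 : (d : G) ∈ ⁅H, H⁆ := h2
    have h4 : ((d ^ p ^ n : H) : G) = (d : G) ^ p ^ n := by simp
    rw [h4]
    exact pow_mem_powerClosure h3)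
  rw [mem_subgroupOf] at h1
  refine ⟨(a ^ p ^ n * b ^ p ^ n)⁻¹ * (a * b) ^ p ^ n, by simpa using h1, by group⟩

end fin

end Cfsg.H1
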