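import Mathlib
import Cfsg.Agent.Lib.Helper21.Frobenius
import Cfsg.Agent.S0016

set_option autoImplicit false

namespace Cfsg.H1
open Subgroup

/-- number of elements of order `m` -/
noncomputable def sOrd (G : Type*) [Group G] (m : ℕ) : ℕ := Nat.card {g : G // orderOf g = m}

/-- a copy of `Fin k` without any algebraic instances -/
structure FinCopy (k : ℕ) : Type where
  /-- underlying value -/
  val : Fin k

/-- the obvious equivalence -/
def FinCopy.equivFin (k : ℕ) : FinCopy k ≃ Fin k :=
  ⟨FinCopy.val, FinCopy.mk, fun _ => rfl, fun _ => rfl⟩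

theorem exists_small_copy (H : Type*) [Group H] [Finite H] :
    ∃ (P : Type) (_ : Group P) (_ : Finite P), Nonempty (P ≃* H) := by
  let e3 : FinCopy (Nat.card H) ≃ H := (FinCopy.equivFin _).trans (Finite.equivFin H).symm
  letI : Group (FinCopy (Nat.card H)) := e3.group
  exact ⟨FinCopy (Nat.card H), e3.group, Finite.of_equiv _ e3.symm, ⟨e3.mulEquiv⟩⟩

section
variable {G : Type*} [Group G] [Finite G]

theorem card_pow_eq_one_eq_sum (d : ℕ) (hd : d ≠ 0) :
    Nat.card {g : G // g ^ d = 1} = ∑ m ∈ d.divisors, sOrd G m := by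
  classical
  haveI : Fintype G := Fintype.ofFinite G
  have h := sum_card_orderOf_eq_card_pow_eq_one (G := G) hd
  rw [Nat.card_eq_fintype_card, Fintype.card_subtype, ← h]
  apply Finset.sum_congr rfl
  intro m _
  rw [sOrd, Nat.card_eq_fintype_card, Fintype.card_subtype]

theorem frob_sum (d : ℕ) (hd : d ∣ Nat.card G) : d ∣ ∑ m ∈ d.divisors, sOrd G m := by
  have hd0 : d ≠ 0 := by
    rintro rfl
    have := Nat.eq_zero_of_zero_dvd hd
    exact Nat.card_pos.ne' this
  rw [← card_pow_eq_one_eq_sum d hd0]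
  exact Cfsg.Agent.Lib.Helper21.frobenius_aux _ G rfl d hd

theorem sum_divisors_prime_mul' {p e : ℕ} (hp : p.Prime) (hpe : ¬ p ∣ e) (F : ℕ → ℕ) :
    ∑ m ∈ (p * e).divisors, F m = ∑ m ∈ e.divisors, F m + ∑ m ∈ e.divisors, F (p * m) := by
  have he0 : e ≠ 0 := by rintro rfl; exact hpe (dvd_zero p)
  have hU : (p * e).divisors = e.divisors ∪ e.divisors.image (p * ·) := by
    ext x
    simp only [Nat.mem_divisors, Finset.mem_union, Finset.mem_image]
    constructor
    · rintro ⟨hx, _⟩
      by_cases hpx : p ∣ x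
      · obtain ⟨y, rfl⟩ := hpx
        right
        exact ⟨y, ⟨Nat.dvd_of_mul_dvd_mul_left hp.pos hx, he0⟩, rfl⟩
      · left
        have hc : Nat.Coprime x p := ((Nat.Prime.coprime_iff_not_dvd hp).mpr hpx).symm
        exact ⟨hc.dvd_of_dvd_mul_left hx, he0⟩
    · rintro (⟨hx, _⟩ | ⟨y, ⟨hy, _⟩, rfl⟩)
      · exact ⟨hx.mul_left p, mul_ne_zero hp.ne_zero he0⟩
      · exact ⟨Nat.mul_dvd_mul_left p hy, mul_ne_zero hp.ne_zero he0⟩
  have hD : Disjoint e.divisors (e.divisors.image (p * ·)) := by
    rw [Finset.disjoint_left]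
    intro x hx hx'
    simp only [Nat.mem_divisors, Finset.mem_image] at hx hx'
    obtain ⟨y, _, rfl⟩ := hx'
    exact hpe ((dvd_mul_right p y).trans hx.1)
  rw [hU, Finset.sum_union hD, Finset.sum_image]
  intro a _ b _ hab
  exact Nat.eq_of_mul_eq_mul_left hp.pos hab

theorem sOrd_pos_iff (m : ℕ) : 0 < sOrd G m ↔ ∃ g : G, orderOf g = m := by
  rw [sOrd, Nat.card_pos_iff]
  constructor
  · rintro ⟨⟨g, hg⟩, _⟩; exact ⟨g, hg⟩
  · rintro ⟨g, hg⟩; exact ⟨⟨g, hg⟩, inferInstance⟩

theorem sOrd_one : sOrd G 1 = 1 := by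
  rw [sOrd, Nat.card_eq_one_iff_unique]
  refine ⟨⟨?_⟩, ⟨⟨1, orderOf_one⟩⟩⟩
  rintro ⟨a, ha⟩ ⟨b, hb⟩
  rw [orderOf_eq_one_iff] at ha hb
  exact Subtype.ext (ha.trans hb.symm)

theorem dvd_two_of_sOrd_eq_one (m : ℕ) (h : sOrd G m = 1) : m ∣ 2 := by
  rw [sOrd, Nat.card_eq_one_iff_unique] at h
  obtain ⟨h1, ⟨⟨g, hg⟩⟩⟩ := h
  have h2 : (⟨g, hg⟩ : {g : G // orderOf g = m}) = ⟨g⁻¹, by rw [orderOf_inv, hg]⟩ :=
    Subsingleton.elim _ _
  have h3 : g = g⁻¹ := congrArg Subtype.val h2
  have h4 : g ^ 2 = 1 := by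
    rw [sq]; nth_rewrite 1 [h3]; exact inv_mul_cancel g
  rw [← hg]; exact orderOf_dvd_of_pow_eq_one h4

theorem pow_prime_eq_one_of_no_sq {p : ℕ} (hp : p.Prime) (hG : IsPGroup p G)
    (h : sOrd G (p ^ 2) = 0) (x : G) : x ^ p = 1 := by
  haveI : Fact p.Prime := ⟨hp⟩
  by_contra hx
  obtain ⟨k, hk⟩ := IsPGroup.iff_orderOf.mp hG x
  have hk2 : 2 ≤ k := by
    by_contra hcon
    apply hx
    have : orderOf x ∣ p := by
      rw [hk]
      have : k ≤ 1 := by omega
      calc p ^ k ∣ p ^ 1 := Nat.pow_dvd_pow p this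
        _ = p := pow_one p
    exact orderOf_dvd_iff_pow_eq_one.mp this
  have hx'o : orderOf (x ^ (p ^ (k - 2))) = p ^ 2 := by
    rw [orderOf_pow_of_dvd (pow_pos hp.pos _).ne' (by rw [hk]; exact Nat.pow_dvd_pow p (by omega)),
      hk]
    have : p ^ k = p ^ (k - 2) * (p ^ 2) := by
      rw [← pow_add]; congr 1; omega
    rw [this, Nat.mul_div_cancel_left _ (pow_pos hp.pos _)]
  have := (sOrd_pos_iff (G := G) (p ^ 2)).mpr ⟨_, hx'o⟩
  omega

theorem exponent_eq_prime {p : ℕ} (hp : p.Prime) (h : ∀ x : G, x ^ p = 1) (hne : Nat.card G ≠ 1) :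
    Monoid.exponent G = p := by
  have h1 : Monoid.exponent G ∣ p := Monoid.exponent_dvd_of_forall_pow_eq_one h
  rcases (Nat.dvd_prime hp).mp h1 with h2 | h2
  · exfalso
    have h3 : Subsingleton G := Monoid.exp_eq_one_iff.mp h2
    exact hne (Nat.card_eq_one_iff_unique.mpr ⟨h3, ⟨1⟩⟩)
  · exact h2

theorem isPGroup_of_unique_prime {p : ℕ} (hp : p.Prime)
    (h : ∀ q : ℕ, q.Prime → q ∣ Nat.card G → q = p) : IsPGroup p G := by
  haveI : Fact p.Prime := ⟨hp⟩
  have := Nat.eq_prime_pow_of_unique_prime_dvd (n := Nat.card G) (p := p) Nat.card_pos.ne'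
    (fun {d} hd hdv => h d hd hdv)
  exact IsPGroup.of_card this

theorem sOrd_le (m : ℕ) : sOrd G m ≤ Nat.card G := Finite.card_subtype_le _

theorem exists_orderOf_eq_of_dvd (g : G) {d : ℕ} (hd : d ∣ orderOf g) : ∃ g' : G, orderOf g' = d := by
  have hpos : 0 < orderOf g := orderOf_pos g
  refine ⟨g ^ (orderOf g / d), ?_⟩
  have h1 : orderOf g / d ∣ orderOf g := Nat.div_dvd_of_dvd hd
  have h0 : orderOf g / d ≠ 0 := by
    intro h0
    rw [h0] at h1
    exact hpos.ne' (Nat.eq_zero_of_zero_dvd h1)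
  rw [orderOf_pow_of_dvd h0 h1, Nat.div_div_self hd hpos.ne']

theorem aux_dvd_sub {p n c k : ℕ} (h1 : p ∣ 1 + n) (h2 : p ∣ c + k * n) : p ∣ k - c := by
  have h3 := Nat.dvd_sub (h1.mul_left k) h2
  have h4 : k * (1 + n) - (c + k * n) = k - c := by
    have : k * (1 + n) = k + k * n := by ring
    omega
  rwa [h4] at h3

theorem two_same_order_sizes (n : ℕ) (hn : n ≠ 1)
    (h : ((fun m : ℕ => Nat.card {g : G // orderOf g = m}) '' Set.range (orderOf : G → ℕ)) =
      {1, n}) :
    (∃ p : ℕ, p.Prime ∧ IsPGroup p G ∧ 3 ≤ Nat.card G ∧ Monoid.exponent G = p) ∨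
      Nonempty (G ≃* QuaternionGroup 2) ∨ (IsCyclic G ∧ Nat.card G = 4) ∨
      (∃ (p : ℕ) (P : Type) (_ : Group P) (_ : Finite P), p.Prime ∧ p ≠ 2 ∧ IsPGroup p P ∧
        Monoid.exponent P = p ∧ Nonempty (G ≃* Multiplicative (ZMod 2) × P)) := by
  classical
  have hs1 : ∀ m, (∃ g : G, orderOf g = m) → sOrd G m = 1 ∨ sOrd G m = n := by
    rintro m ⟨g, hg⟩
    have : sOrd G m ∈ ((fun m : ℕ => Nat.card {g : G // orderOf g = m}) ''
        Set.range (orderOf : G → ℕ)) := ⟨m, ⟨g, hg⟩, rfl⟩
    rw [h] at this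
    simpa using this
  obtain ⟨m0, ⟨g0, hg0⟩, hm0⟩ : n ∈ ((fun m : ℕ => Nat.card {g : G // orderOf g = m}) ''
      Set.range (orderOf : G → ℕ)) := by
    rw [h]; simp
  have hm0' : sOrd G m0 = n := hm0
  have hn2 : 2 ≤ n := by
    have := (sOrd_pos_iff (G := G) m0).mpr ⟨g0, hg0⟩
    omega
  have hs3 : ∀ m, ¬ m ∣ 2 → sOrd G m = 0 ∨ sOrd G m = n := by
    intro m hm
    by_cases hex : ∃ g : G, orderOf g = m
    · rcases hs1 m hex with h1 | h1
      · exact absurd (dvd_two_of_sOrd_eq_one m h1) hm
      · exact Or.inr h1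
    · left
      by_contra h0
      exact hex ((sOrd_pos_iff m).mp (Nat.pos_of_ne_zero h0))
  have hs4 : ∀ m, ¬ m ∣ 2 → (∃ g : G, orderOf g = m) → sOrd G m = n := by
    intro m hm hex
    rcases hs3 m hm with h1 | h1
    · have := (sOrd_pos_iff m).mpr hex; omega
    · exact h1
  have hcauchy : ∀ q : ℕ, q.Prime → q ∣ Nat.card G → ∃ g : G, orderOf g = q := by
    intro q hq hd
    haveI : Fact q.Prime := ⟨hq⟩
    exact exists_prime_orderOf_dvd_card' q hd
  have hnd2 : ∀ p : ℕ, p.Prime → p ≠ 2 → ∀ k, ¬ (p * k) ∣ 2 := by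
    intro p hp hp2 k hd
    have : p ∣ 2 := (dvd_mul_right p k).trans hd
    exact hp2 ((Nat.prime_dvd_prime_iff_eq hp Nat.prime_two).mp this)
  have hp1 : ∀ p : ℕ, p.Prime → ¬ p ∣ 1 := fun p hp hd => hp.one_lt.ne' (Nat.dvd_one.mp hd)
  have hp2' : ∀ p : ℕ, p.Prime → p ≠ 2 → ¬ p ∣ 2 := fun p hp hp2 hd =>
    hp2 ((Nat.prime_dvd_prime_iff_eq hp Nat.prime_two).mp hd)
  have hodd : ∀ p : ℕ, p.Prime → p ≠ 2 → p ∣ Nat.card G → sOrd G p = n ∧ p ∣ 1 + n := by
    intro p hp hp2 hd
    have h1 : sOrd G p = n := hs4 p (hp2' p hp hp2) (hcauchy p hp hd)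
    refine ⟨h1, ?_⟩
    have := frob_sum (G := G) p hd
    rw [Nat.Prime.sum_divisors hp, h1, sOrd_one, add_comm] at this
    exact this
  have hK : ∀ p q : ℕ, p.Prime → p ≠ 2 → q.Prime → p ≠ q → p ∣ Nat.card G → q ∣ Nat.card G →
      sOrd G q = n → False := by
    intro p q hp hp2 hq hpq hpd hqd hsq
    obtain ⟨hsp, hpn⟩ := hodd p hp hp2 hpd
    have hpq' : ¬ p ∣ q := fun hd => hpq ((Nat.prime_dvd_prime_iff_eq hp hq).mp hd)
    have hcop : Nat.Coprime p q := (Nat.Prime.coprime_iff_not_dvd hp).mpr hpq'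
    have hd : p * q ∣ Nat.card G := hcop.mul_dvd_of_dvd_of_dvd hpd hqd
    have h1 := frob_sum (G := G) (p * q) hd
    rw [sum_divisors_prime_mul' hp hpq', Nat.Prime.sum_divisors hq, Nat.Prime.sum_divisors hq,
      mul_one, hsq, sOrd_one, hsp] at h1
    have h2 : p ∣ n + 1 + (sOrd G (p * q) + n) := (dvd_mul_right p q).trans h1
    rcases hs3 (p * q) (hnd2 p hp hp2 q) with h3 | h3
    · rw [h3] at h2
      exact hp1 p hp (aux_dvd_sub (c := 1) (k := 2) hpn (by convert h2 using 1; ring))
    · rw [h3] at h2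
      exact hp2' p hp hp2 (aux_dvd_sub (c := 1) (k := 3) hpn (by convert h2 using 1; ring))
  have hsq0 : ∀ p : ℕ, p.Prime → p ≠ 2 → p ∣ Nat.card G → sOrd G (p ^ 2) = 0 := by
    intro p hp hp2 hpd
    obtain ⟨hsp, hpn⟩ := hodd p hp hp2 hpd
    rcases hs3 (p ^ 2) (by rw [sq]; exact hnd2 p hp hp2 p) with h3 | h3
    · exact h3
    · exfalso
      obtain ⟨g, hg⟩ := (sOrd_pos_iff (G := G) (p ^ 2)).mp (by omega)
      have hd : p ^ 2 ∣ Nat.card G := hg ▸ orderOf_dvd_natCard g
      have h1 := frob_sum (G := G) (p ^ 2) hd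
      rw [Nat.sum_divisors_prime_pow hp, Finset.sum_range_succ, Finset.sum_range_succ,
        Finset.sum_range_one, pow_zero, pow_one, sOrd_one, hsp, h3] at h1
      have h2 : p ∣ 1 + n + n := (Dvd.intro p (sq p).symm).trans h1
      exact hp1 p hp (aux_dvd_sub (c := 1) (k := 2) hpn (by convert h2 using 1; ring))
  have hne1 : Nat.card G ≠ 1 := by
    intro h1
    have := sOrd_le (G := G) m0
    omega
  by_cases h2 : 2 ∣ Nat.card G
  swap
  · -- odd order
    obtain ⟨p, hp, hpd⟩ := Nat.exists_prime_and_dvd hne1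
    have hp2 : p ≠ 2 := by rintro rfl; exact h2 hpd
    have hPG : IsPGroup p G := isPGroup_of_unique_prime hp (fun q hq hqd => by
      by_contra hne
      have hq2 : q ≠ 2 := by rintro rfl; exact h2 hqd
      exact hK p q hp hp2 hq (Ne.symm hne) hpd hqd (hodd q hq hq2 hqd).1)
    have hexp := pow_prime_eq_one_of_no_sq hp hPG (hsq0 p hp hp2 hpd)
    left
    refine ⟨p, hp, hPG, ?_, exponent_eq_prime hp hexp hne1⟩
    have h3 := Nat.le_of_dvd Nat.card_pos hpd
    have h4 := hp.two_le
    omega
  · obtain ⟨z, hz⟩ := hcauchy 2 Nat.prime_two h2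
    rcases hs1 2 ⟨z, hz⟩ with hs2 | hs2
    swap
    · -- many involutions
      have hPG : IsPGroup 2 G := isPGroup_of_unique_prime Nat.prime_two (fun q hq hqd => by
        by_contra hne
        exact hK q 2 hq hne Nat.prime_two hne hqd h2 hs2)
      have h40 : sOrd G (2 ^ 2) = 0 := by
        rcases hs3 (2 ^ 2) (by norm_num) with h3 | h3
        · exact h3
        · exfalso
          obtain ⟨g, hg⟩ := (sOrd_pos_iff (G := G) (2 ^ 2)).mp (by omega)
          have hd : 2 ^ 2 ∣ Nat.card G := hg ▸ orderOf_dvd_natCard g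
          have h1 := frob_sum (G := G) (2 ^ 2) hd
          rw [Nat.sum_divisors_prime_pow Nat.prime_two, Finset.sum_range_succ,
            Finset.sum_range_succ, Finset.sum_range_one, pow_zero, pow_one, sOrd_one, hs2, h3] at h1
          omega
      have hexp := pow_prime_eq_one_of_no_sq Nat.prime_two hPG h40
      left
      refine ⟨2, Nat.prime_two, hPG, ?_, exponent_eq_prime Nat.prime_two hexp hne1⟩
      have h5 := card_pow_eq_one_eq_sum (G := G) 2 (by norm_num)
      rw [Nat.Prime.sum_divisors Nat.prime_two, hs2, sOrd_one] at h5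
      have h6 : Nat.card {g : G // g ^ 2 = 1} ≤ Nat.card G := Finite.card_subtype_le _
      omega
    · -- a unique involution
      have hzu : ∀ t : G, orderOf t = 2 → t = z := by
        intro t ht
        rw [sOrd, Nat.card_eq_one_iff_unique] at hs2
        have := hs2.1
        exact congrArg Subtype.val
          (Subsingleton.elim (⟨t, ht⟩ : {g : G // orderOf g = 2}) ⟨z, hz⟩)
      have hzc : ∀ g : G, g * z = z * g := by
        intro g
        have h3 : orderOf (g * z * g⁻¹) = 2 := by rw [← hz]; exact (MulAut.conj g).orderOf_eq z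
        have h4 := hzu _ h3
        calc g * z = g * z * g⁻¹ * g := by group
          _ = z * g := by rw [h4]
      by_cases hoddp : ∃ p : ℕ, p.Prime ∧ p ≠ 2 ∧ p ∣ Nat.card G
      · obtain ⟨p, hp, hp2, hpd⟩ := hoddp
        obtain ⟨hsp, hpn⟩ := hodd p hp hp2 hpd
        have h4 : ¬ 2 ^ 2 ∣ Nat.card G := by
          intro h4
          have h1 := frob_sum (G := G) (2 ^ 2) h4
          rw [Nat.sum_divisors_prime_pow Nat.prime_two, Finset.sum_range_succ,
            Finset.sum_range_succ, Finset.sum_range_one, pow_zero, pow_one, sOrd_one, hs2] at h1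
          have hs4' : sOrd G (2 ^ 2) = n := by
            rcases hs3 (2 ^ 2) (by norm_num) with h3 | h3
            · rw [h3] at h1; omega
            · exact h3
          obtain ⟨x, hx⟩ := hcauchy p hp hpd
          have hcop2 : Nat.Coprime 2 p :=
            (Nat.coprime_primes Nat.prime_two hp).mpr (Ne.symm hp2)
          have hzx : orderOf (z * x) = 2 * p := by
            rw [(show Commute z x from (hzc x).symm).orderOf_mul_eq_mul_orderOf_of_coprime
              (by rw [hz, hx]; exact hcop2), hz, hx]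
          have hs2p : sOrd G (p * 2) = n :=
            hs4 _ (hnd2 p hp hp2 2) ⟨z * x, by rw [hzx, mul_comm]⟩
          have hp4 : ¬ p ∣ 2 ^ 2 := fun hd => hp2' p hp hp2 (hp.dvd_of_dvd_pow hd)
          have hd : p * 2 ^ 2 ∣ Nat.card G :=
            ((Nat.Prime.coprime_iff_not_dvd hp).mpr hp4).mul_dvd_of_dvd_of_dvd hpd h4
          have h5 := frob_sum (G := G) (p * 2 ^ 2) hd
          rw [sum_divisors_prime_mul' hp hp4, Nat.sum_divisors_prime_pow Nat.prime_two,
            Nat.sum_divisors_prime_pow Nat.prime_two, Finset.sum_range_succ,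
            Finset.sum_range_succ, Finset.sum_range_one, Finset.sum_range_succ,
            Finset.sum_range_succ, Finset.sum_range_one, pow_zero, pow_one, mul_one, sOrd_one, hs2,
            hs4', hsp, hs2p] at h5
          have h6 : p ∣ 1 + 1 + n + (n + n + sOrd G (p * 2 ^ 2)) := (dvd_mul_right p _).trans h5
          rcases hs3 (p * 2 ^ 2) (hnd2 p hp hp2 _) with h3 | h3
          · rw [h3] at h6
            exact hp1 p hp (aux_dvd_sub (c := 2) (k := 3) hpn (by convert h6 using 1; ring))
          · rw [h3] at h6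
            exact hp2' p hp hp2 (aux_dvd_sub (c := 2) (k := 4) hpn (by convert h6 using 1; ring))
        set K := zpowers z with hKdef
        have hKc : Nat.card K = 2 := by rw [Nat.card_zpowers, hz]
        have hKcomm : ∀ k ∈ K, ∀ g : G, Commute k g := by
          intro k hk g
          obtain ⟨i, rfl⟩ := mem_zpowers_iff.mp hk
          exact (show Commute z g from (hzc g).symm).zpow_left i
        haveI hKn : K.Normal := by
          constructor
          intro k hk g
          have : g * k * g⁻¹ = k := by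
            rw [← (hKcomm k hk g).eq, mul_inv_cancel_right]
          rw [this]; exact hk
        have hci := K.card_mul_index
        rw [hKc] at hci
        have hiodd : ¬ 2 ∣ K.index := by
          rintro ⟨r, hr⟩
          apply h4
          exact ⟨r, by rw [← hci, hr]; ring⟩
        have hidx : Nat.Coprime (Nat.card K) K.index := by
          rw [hKc]
          exact (Nat.Prime.coprime_iff_not_dvd Nat.prime_two).mpr hiodd
        obtain ⟨H, hH⟩ := exists_right_complement'_of_coprime hidx
        have hcH := hH.card_mul_card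
        rw [hKc] at hcH
        have hHodd : ¬ 2 ∣ Nat.card H := by
          have : Nat.card H = K.index := by omega
          rw [this]; exact hiodd
        have hHdvd : Nat.card H ∣ Nat.card G := card_subgroup_dvd_card H
        have hPH : IsPGroup p H := isPGroup_of_unique_prime hp (fun q hq hqd => by
          by_contra hne
          have hq2 : q ≠ 2 := by rintro rfl; exact hHodd hqd
          exact hK p q hp hp2 hq (Ne.symm hne) hpd (hqd.trans hHdvd)
            (hodd q hq hq2 (hqd.trans hHdvd)).1)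
        have hH0 : sOrd H (p ^ 2) = 0 := by
          by_contra h0
          obtain ⟨y, hy⟩ := (sOrd_pos_iff (G := H) (p ^ 2)).mp (Nat.pos_of_ne_zero h0)
          have h1 := (sOrd_pos_iff (G := G) (p ^ 2)).mpr ⟨(y : G), by rw [Subgroup.orderOf_coe, hy]⟩
          have h3 := hsq0 p hp hp2 hpd
          omega
        have hHexp := pow_prime_eq_one_of_no_sq hp hPH hH0
        have hHne : Nat.card H ≠ 1 := by
          intro h1
          rw [h1] at hcH
          rw [← hcH] at hpd
          exact hp2' p hp hp2 (by simpa using hpd)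
        have hHe : Monoid.exponent H = p := exponent_eq_prime hp hHexp hHne
        let f : K × H →* G := MonoidHom.noncommCoprod K.subtype H.subtype
          (fun k y => hKcomm k.1 k.2 y.1)
        have hfb : Function.Bijective f := hH
        let e1 : K × H ≃* G := MulEquiv.ofBijective f hfb
        haveI : Fact (Nat.Prime 2) := ⟨Nat.prime_two⟩
        let e2 : K ≃* Multiplicative (ZMod 2) := mulEquivOfPrimeCardEq (p := 2) hKc (by simp)
        obtain ⟨P, iG, iF, ⟨e4⟩⟩ := exists_small_copy H
        right; right; right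
        refine ⟨p, P, iG, iF, hp, hp2, hPH.of_equiv e4.symm, ?_, ?_⟩
        · rw [Monoid.exponent_eq_of_mulEquiv e4, hHe]
        · exact ⟨e1.symm.trans (MulEquiv.prodCongr e2 e4.symm)⟩
      · push Not at hoddp
        haveI : Fact (Nat.Prime 2) := ⟨Nat.prime_two⟩
        have hPG : IsPGroup 2 G := isPGroup_of_unique_prime Nat.prime_two (fun q hq hqd => by
          by_contra hne; exact hoddp q hq hne hqd)
        have hm0nd : ¬ m0 ∣ 2 := by
          intro hd
          rcases (Nat.dvd_prime Nat.prime_two).mp hd with h1 | h1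
          · rw [h1, sOrd_one] at hm0'; omega
          · rw [h1, hs2] at hm0'; omega
        obtain ⟨k, hk⟩ := IsPGroup.iff_orderOf.mp hPG g0
        have hk2 : 2 ≤ k := by
          by_contra hlt
          apply hm0nd; rw [← hg0, hk]
          calc 2 ^ k ∣ 2 ^ 1 := Nat.pow_dvd_pow 2 (by omega)
            _ = 2 := pow_one 2
        have h4ex : ∃ g : G, orderOf g = 2 ^ 2 :=
          exists_orderOf_eq_of_dvd g0 (by rw [hk]; exact Nat.pow_dvd_pow 2 hk2)
        have hs4' : sOrd G (2 ^ 2) = n := hs4 _ (by norm_num) h4ex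
        have hd4 : 2 ^ 2 ∣ Nat.card G := by
          obtain ⟨g, hg⟩ := h4ex
          exact hg ▸ orderOf_dvd_natCard g
        have h1 := frob_sum (G := G) (2 ^ 2) hd4
        rw [Nat.sum_divisors_prime_pow Nat.prime_two, Finset.sum_range_succ,
          Finset.sum_range_succ, Finset.sum_range_one, pow_zero, pow_one, sOrd_one, hs2, hs4'] at h1
        have h80 : sOrd G (2 ^ 3) = 0 := by
          rcases hs3 (2 ^ 3) (by norm_num) with h3 | h3
          · exact h3
          · exfalso
            obtain ⟨g, hg⟩ := (sOrd_pos_iff (G := G) (2 ^ 3)).mp (by omega)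
            have hd : 2 ^ 3 ∣ Nat.card G := hg ▸ orderOf_dvd_natCard g
            have h5 := frob_sum (G := G) (2 ^ 3) hd
            rw [Nat.sum_divisors_prime_pow Nat.prime_two, Finset.sum_range_succ,
              Finset.sum_range_succ, Finset.sum_range_succ, Finset.sum_range_one, pow_zero, pow_one,
              sOrd_one, hs2, hs4', h3] at h5
            omega
        have hexp4 : ∀ g : G, g ^ 4 = 1 := by
          intro g
          obtain ⟨j, hj⟩ := IsPGroup.iff_orderOf.mp hPG g
          have hj2 : j ≤ 2 := by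
            by_contra hlt
            obtain ⟨g', hg'⟩ := exists_orderOf_eq_of_dvd g (d := 2 ^ 3)
              (by rw [hj]; exact Nat.pow_dvd_pow 2 (by omega))
            have := (sOrd_pos_iff (G := G) (2 ^ 3)).mpr ⟨g', hg'⟩
            omega
          apply orderOf_dvd_iff_pow_eq_one.mp
          rw [hj]
          calc 2 ^ j ∣ 2 ^ 2 := Nat.pow_dvd_pow 2 hj2
            _ = 4 := by norm_num
        have huniq : ∀ H K : Subgroup G, Nat.card H = 2 → Nat.card K = 2 → H = K := by
          have key : ∀ H : Subgroup G, Nat.card H = 2 → H = zpowers z := by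
            intro H hH
            obtain ⟨t, ht⟩ := exists_prime_orderOf_dvd_card' (G := H) 2 (by rw [hH])
            have h5 : (t : G) = z := hzu _ (by rw [Subgroup.orderOf_coe, ht])
            symm
            apply eq_of_le_of_card_ge
            · rw [zpowers_le, ← h5]; exact t.2
            · rw [hH, Nat.card_zpowers, hz]
          intro H K hH hK'
          rw [key H hH, key K hK']
        rcases Cfsg.Agent.S0016.result 2 hPG huniq with hcyc | ⟨_, j, ⟨e⟩⟩
        · right; right; left
          refine ⟨hcyc, ?_⟩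
          obtain ⟨g, hg⟩ := hcyc.exists_generator
          have h5 : orderOf g = Nat.card G := orderOf_eq_card_of_forall_mem_zpowers hg
          have h6 : orderOf g ∣ 4 := orderOf_dvd_of_pow_eq_one (hexp4 g)
          rw [h5] at h6
          exact Nat.dvd_antisymm h6 (by simpa using hd4)
        · have h5 : orderOf (e.symm (QuaternionGroup.a 1)) = 2 * 2 ^ j := by
            rw [e.symm.orderOf_eq, QuaternionGroup.orderOf_a_one]
          have hd : 2 * 2 ^ j ∣ 4 := by
            rw [← h5]; exact orderOf_dvd_of_pow_eq_one (hexp4 _)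
          have hj : j ≤ 1 := by
            by_contra hlt
            have h6 : 2 ^ 2 ≤ 2 ^ j := Nat.pow_le_pow_right (by norm_num) (by omega)
            have h7 := Nat.le_of_dvd (by norm_num) hd
            omega
          interval_cases j
          · right; right; left
            have e' : G ≃* QuaternionGroup 1 := e
            haveI := QuaternionGroup.quaternionGroup_one_isCyclic
            refine ⟨isCyclic_of_surjective e'.symm e'.symm.surjective, ?_⟩
            rw [Nat.card_congr e'.toEquiv, Nat.card_eq_fintype_card, QuaternionGroup.card]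
          · right; left
            exact ⟨e⟩

end

end Cfsg.H1
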