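import Mathlib
import Cfsg.Prelude.Def_Solvable
import Cfsg.Agent.H1.Small4
import Cfsg.Agent.H1.Small2
import Cfsg.Agent.Lib.Helper22.FrobKernel

set_option autoImplicit false

namespace Cfsg.H1

open Subgroup
open scoped Pointwise commutatorElement

universe u

variable {G : Type u} [Group G]

theorem lt_inf_normalizer_of_nilpotent {M D : Subgroup G} (hM : Group.IsNilpotent M) (hD : D < M) :
    D < M ⊓ normalizer (D : Set G) := by
  have hnc : NormalizerCondition M := Group.normalizerCondition_of_isNilpotent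
  have h1 : D.subgroupOf M < ⊤ := by
    rw [lt_top_iff_ne_top]
    intro h
    rw [subgroupOf_eq_top] at h
    exact hD.not_ge h
  have h2 := hnc _ h1
  rw [← subgroupOf_normalizer_eq hD.le] at h2
  refine lt_of_le_of_ne (le_inf hD.le le_normalizer) ?_
  intro h
  apply h2.ne
  ext x
  rw [mem_subgroupOf, mem_subgroupOf]
  constructor
  · intro hx; exact le_normalizer hx
  · intro hx
    rw [h]; exact ⟨x.2, hx⟩

theorem isCoatom_conj_smul {M : Subgroup G} (hM : IsCoatom M) (g : G) :
    IsCoatom (MulAut.conj g • M) :=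
  ((MulAut.conj g).mapSubgroup.isCoatom_iff M).2 hM

theorem coatoms_inf_eq_bot [Finite G] (h : ∀ M : Subgroup G, IsCoatom M → Group.IsNilpotent M)
    (hs : ∀ N : Subgroup G, N.Normal → N = ⊥ ∨ N = ⊤) (k : ℕ) :
    ∀ M₁ M₂ : Subgroup G, IsCoatom M₁ → IsCoatom M₂ → M₁ ≠ M₂ →
      Nat.card G - Nat.card (M₁ ⊓ M₂ : Subgroup G) = k → M₁ ⊓ M₂ = ⊥ := by
  induction k using Nat.strong_induction_on with
  | _ k ih =>
    intro M₁ M₂ h1 h2 hne hk
    by_contra hD
    have hDtop : M₁ ⊓ M₂ ≠ ⊤ := fun e => h1.1 (eq_top_iff.2 (e ▸ inf_le_left))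
    have hN : normalizer ((M₁ ⊓ M₂ : Subgroup G) : Set G) ≠ ⊤ := by
      intro e
      rcases hs _ (normalizer_eq_top_iff.1 e) with e' | e'
      · exact hD e'
      · exact hDtop e'
    obtain ⟨M, hM, hNM⟩ := (eq_top_or_exists_le_coatom _).resolve_left hN
    have key : ∀ M' M'' : Subgroup G, IsCoatom M' → IsCoatom M'' → M' ≠ M'' →
        M' ⊓ M'' = M₁ ⊓ M₂ → M = M' := by
      intro M' M'' h1' h2' hne' he
      by_contra hMM
      have hlt : M' ⊓ M'' < M' := by
        refine lt_of_le_of_ne inf_le_left fun e => hne' ?_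
        have : M' ≤ M'' := inf_eq_left.1 e
        exact ((h1'.le_iff_eq h2'.1).1 this).symm
      have h3 := lt_inf_normalizer_of_nilpotent (h M' h1') hlt
      rw [he] at h3
      have h4 : M₁ ⊓ M₂ < M' ⊓ M := lt_of_lt_of_le h3 (inf_le_inf_left _ hNM)
      have h5 := card_lt_of_lt h4
      have h6 : Nat.card (M' ⊓ M : Subgroup G) ≤ Nat.card G := card_le_card_group _
      have h7 := ih (Nat.card G - Nat.card (M' ⊓ M : Subgroup G)) (by omega) M' M h1' hM
        (fun e => hMM e.symm) rfl
      rw [h7] at h4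
      exact not_lt_bot h4
    have e1 := key M₁ M₂ h1 h2 hne rfl
    have e2 := key M₂ M₁ h2 h1 hne.symm (inf_comm _ _)
    exact hne (e1.symm.trans e2)

theorem isFrobeniusComplement_of_coatom [Finite G]
    (h : ∀ M : Subgroup G, IsCoatom M → Group.IsNilpotent M)
    (hs : ∀ N : Subgroup G, N.Normal → N = ⊥ ∨ N = ⊤) (M : Subgroup G) (hM : IsCoatom M)
    (hMb : M ≠ ⊥) : Cfsg.IsFrobeniusComplement M := by
  refine ⟨hMb, hM.1, fun g hg => ?_⟩
  apply coatoms_inf_eq_bot h hs _ M _ hM (isCoatom_conj_smul hM g) _ rfl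
  intro e
  have hgN : g ∈ normalizer (M : Set G) := mem_normalizer_iff_map_conj_eq.2 e.symm
  have hlt : M < normalizer (M : Set G) :=
    lt_of_le_of_ne le_normalizer (fun e' => hg (e' ▸ hgN))
  have := hM.2 _ hlt
  rcases hs M (normalizer_eq_top_iff.1 this) with e' | e'
  · exact hMb e'
  · exact hM.1 e'

theorem two_mul_index_le [Finite G] {M : Subgroup G} (hMb : M ≠ ⊥) :
    2 * M.index ≤ Nat.card G := by
  rw [← M.card_mul_index]
  apply Nat.mul_le_mul_right
  have h1 : Nat.card M ≠ 1 := fun h => hMb (card_eq_one.1 h)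
  have h2 : 0 < Nat.card M := Nat.card_pos
  omega

theorem schmidt_simple_case [Finite G] (h : ∀ M : Subgroup G, IsCoatom M → Group.IsNilpotent M)
    (hs : ∀ N : Subgroup G, N.Normal → N = ⊥ ∨ N = ⊤) : Group.IsSolvable G := by
  by_cases hcyc : ∃ x : G, zpowers x = ⊤
  · obtain ⟨x, hx⟩ := hcyc
    haveI : IsCyclic G := ⟨x, fun y => by
      have : y ∈ zpowers x := hx ▸ mem_top y
      exact this⟩
    exact Group.isSolvable_of_comm (fun a b => IsCyclic.commGroup.mul_comm a b)
  push Not at hcyc
  exfalso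
  have hnt : (⊥ : Subgroup G) ≠ ⊤ := by
    have := hcyc 1
    rwa [zpowers_one_eq_bot] at this
  obtain ⟨M, hM, -⟩ := (eq_top_or_exists_le_coatom (⊥ : Subgroup G)).resolve_left hnt
  have hMb : M ≠ ⊥ := by
    rintro rfl
    have : ∃ x : G, x ≠ 1 := by
      by_contra hcon
      push Not at hcon
      apply hnt
      ext y
      simp [hcon y]
    obtain ⟨x, hx⟩ := this
    apply hcyc x
    apply hM.2
    rw [bot_lt_iff_ne_bot]
    intro e
    rw [zpowers_eq_bot] at e
    exact hx e
  have hF := isFrobeniusComplement_of_coatom h hs M hM hMb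
  have hcard := Cfsg.Agent.Lib.Helper22.card_frobeniusKernel hF
  have hidx : 1 < M.index := by
    have h1 : M.index ≠ 1 := fun e => hM.1 (index_eq_one.1 e)
    have h2 : M.index ≠ 0 := index_ne_zero_of_finite
    omega
  rw [Nat.card_coe_set_eq] at hcard
  obtain ⟨x, hxK, hx1⟩ : ∃ x ∈ Cfsg.frobeniusKernel M, x ≠ 1 := by
    by_contra hcon
    push Not at hcon
    have hsub : Cfsg.frobeniusKernel M ⊆ {1} := fun y hy => hcon y hy
    have := Set.ncard_le_ncard hsub (Set.toFinite _)
    rw [Set.ncard_singleton] at this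
    omega
  obtain ⟨M', hM', hxM'⟩ := (eq_top_or_exists_le_coatom (zpowers x)).resolve_left (hcyc x)
  have hxM'' : x ∈ M' := hxM' (mem_zpowers x)
  have hM'b : M' ≠ ⊥ := by
    rintro rfl
    exact hx1 hxM''
  have hF' := isFrobeniusComplement_of_coatom h hs M' hM' hM'b
  have hcard' := Cfsg.Agent.Lib.Helper22.card_frobeniusKernel hF'
  rw [Nat.card_coe_set_eq] at hcard'
  have hsub : (Cfsg.frobeniusKernel M')ᶜ ⊆ Cfsg.frobeniusKernel M \ {1} := by
    intro y hy
    have hy' : ¬ (y = 1 ∨ ∀ g : G, y ∉ MulAut.conj g • M') := hy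
    push Not at hy'
    obtain ⟨hy1, g, hyg⟩ := hy'
    refine ⟨Or.inr fun b hyb => ?_, hy1⟩
    by_cases e : MulAut.conj g • M' = MulAut.conj b • M
    · have e2 : M' = MulAut.conj (g⁻¹ * b) • M := by
        rw [conj_mul_smul, ← e, ← conj_mul_smul, inv_mul_cancel, map_one, one_smul]
      rcases hxK with hx | hx
      · exact hx1 hx
      · exact hx (g⁻¹ * b) (e2 ▸ hxM'')
    · have := coatoms_inf_eq_bot h hs _ _ _ (isCoatom_conj_smul hM' g) (isCoatom_conj_smul hM b) e rfl
      have hy2 : y ∈ MulAut.conj g • M' ⊓ MulAut.conj b • M := ⟨hyg, hyb⟩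
      rw [this, mem_bot] at hy2
      exact hy1 hy2
  have h1 := Set.ncard_le_ncard hsub (Set.toFinite _)
  have h1K : (1 : G) ∈ Cfsg.frobeniusKernel M := Or.inl rfl
  rw [Set.ncard_compl, hcard', Set.ncard_sdiff_singleton_of_mem h1K, hcard] at h1
  have h2 := two_mul_index_le hMb
  have h3 := two_mul_index_le hM'b
  omega

theorem schmidt_aux (n : ℕ) : ∀ (G : Type u) [Group G] [Finite G], Nat.card G = n →
    (∀ M : Subgroup G, IsCoatom M → Group.IsNilpotent M) → Group.IsSolvable G := by
  induction n using Nat.strong_induction_on with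
  | _ n ih =>
    intro G _ _ hn h
    by_cases hs : ∀ N : Subgroup G, N.Normal → N = ⊥ ∨ N = ⊤
    · exact schmidt_simple_case h hs
    push Not at hs
    obtain ⟨N, hN, hNb, hNt⟩ := hs
    obtain ⟨M, hM, hNM⟩ := (eq_top_or_exists_le_coatom N).resolve_left hNt
    haveI := h M hM
    haveI hNs : Group.IsSolvable N := isSolvable_of_le hNM inferInstance
    haveI hQ : Group.IsSolvable (G ⧸ N) := by
      apply ih (Nat.card (G ⧸ N)) (hn ▸ card_quotient_lt hNb) (G ⧸ N) rfl
      intro M' hM'
      have hco : IsCoatom (M'.comap (QuotientGroup.mk' N)) := by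
        constructor
        · intro e
          apply hM'.1
          rw [← map_comap_eq_self_of_surjective (QuotientGroup.mk'_surjective N) M', e,
            map_top_of_surjective _ (QuotientGroup.mk'_surjective N)]
        · intro K hK
          have hNK : N ≤ K := by
            refine le_trans ?_ hK.le
            conv_lhs => rw [← QuotientGroup.ker_mk' N]
            exact ker_le_comap _ _
          have h1 : M' < K.map (QuotientGroup.mk' N) := by
            rw [← map_comap_eq_self_of_surjective (QuotientGroup.mk'_surjective N) M']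
            refine lt_of_le_of_ne (map_mono hK.le) fun e => hK.ne ?_
            have := congrArg (comap (QuotientGroup.mk' N)) e
            have hNM' : N ≤ comap (QuotientGroup.mk' N) M' := by
              conv_lhs => rw [← QuotientGroup.ker_mk' N]
              exact ker_le_comap _ _
            rw [comap_map_eq_self (by rw [QuotientGroup.ker_mk']; exact hNM'),
              comap_map_eq_self (by rw [QuotientGroup.ker_mk']; exact hNK)] at this
            exact this
          have h2 := hM'.2 _ h1
          have := congrArg (comap (QuotientGroup.mk' N)) h2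
          rwa [comap_map_eq_self (by rw [QuotientGroup.ker_mk']; exact hNK), comap_top] at this
      haveI := h _ hco
      have hsurj : Function.Surjective
          ((QuotientGroup.mk' N).subgroupComap M') :=
        MonoidHom.subgroupComap_surjective_of_surjective _ _ (QuotientGroup.mk'_surjective N)
      exact Group.nilpotent_of_surjective _ hsurj
    exact Group.isSolvable_of_ker_le_range N.subtype (QuotientGroup.mk' N)
      (by rw [QuotientGroup.ker_mk', range_subtype])

/-- S0046 -/
theorem schmidt [Finite G] (h : ∀ M : Subgroup G, IsCoatom M → Group.IsNilpotent M) :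
    Group.IsSolvable G := schmidt_aux _ G rfl h

end Cfsg.H1
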