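import Mathlib

namespace Cfsg.H1

open Equiv.Perm

variable {α : Type*} [Fintype α] [DecidableEq α]

theorem exists_perm_of_injOn (G : Subgroup (Equiv.Perm α)) {k : ℕ}
    (hkn : k ≤ Fintype.card α) (hG : MulAction.IsMultiplyPretransitive G α k)
    (U : Finset α) (hU : U.card ≤ k) (φ : α → α) (hφ : Set.InjOn φ (U : Set α)) :
    ∃ x ∈ G, ∀ u ∈ U, x u = φ u := by
  haveI : MulAction.IsMultiplyPretransitive G α U.card :=
    MulAction.isMultiplyPretransitive_of_le hU (by rw [Nat.card_eq_fintype_card]; exact hkn)
  let e : Fin U.card ≃ U := U.equivFin.symm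
  let x1 : Fin U.card ↪ α := e.toEmbedding.trans (Function.Embedding.subtype _)
  let x2 : Fin U.card ↪ α := ⟨fun i => φ (e i), fun i j h => by
    have := hφ (e i).2 (e j).2 h
    exact e.injective (Subtype.ext this)⟩
  obtain ⟨g, hg⟩ := MulAction.exists_smul_eq G x1 x2
  refine ⟨g, g.2, fun u hu => ?_⟩
  have := DFunLike.congr_fun hg (e.symm ⟨u, hu⟩)
  have h2 : x2 (e.symm ⟨u, hu⟩) = φ u := by
    show φ (e (e.symm ⟨u, hu⟩)) = φ u
    rw [Equiv.apply_symm_apply]
  rw [h2] at this
  simpa [x1, Function.Embedding.smul_apply, Subgroup.smul_def] using this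

theorem core_comm (G : Subgroup (Equiv.Perm α)) {k : ℕ}
    (hkn : k ≤ Fintype.card α) (hG : MulAction.IsMultiplyPretransitive G α k)
    (g : Equiv.Perm α) (hg : g ∈ G) (F A0 : Finset α) (hFS : F ⊆ g.support) (hFk : F.card + 1 ≤ k)
    (hA0 : A0 ⊆ F) (hA0g : ∀ y ∈ A0, g y ∈ F)
    (y0 v : α) (hy0 : y0 ∈ F) (hu : g y0 ∉ F) (hvS : v ∈ g.support) (hvF : v ∉ F)
    (hvu : v ≠ g y0) :
    ∃ c ∈ G, c ≠ 1 ∧ c.support.card + A0.card + (F.card + 1) ≤ 2 * g.support.card := by
  have huS : g y0 ∈ g.support := apply_mem_support.2 (hFS hy0)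
  obtain ⟨x, hxG, hx⟩ := exists_perm_of_injOn G hkn hG (insert (g y0) F)
    (by rw [Finset.card_insert_of_notMem hu]; exact hFk)
    (fun a => if a = g y0 then v else a) (by
      intro a ha b hb hab
      simp only at hab
      rw [Finset.mem_coe, Finset.mem_insert] at ha hb
      by_cases h1 : a = g y0
      · by_cases h2 : b = g y0
        · rw [h1, h2]
        · rw [if_pos h1, if_neg h2] at hab
          rcases hb with hb | hb
          · exact absurd hb h2
          · rw [← hab] at hb; exact absurd hb hvF
      · by_cases h2 : b = g y0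
        · rw [if_neg h1, if_pos h2] at hab
          rcases ha with ha | ha
          · exact absurd ha h1
          · rw [hab] at ha; exact absurd ha hvF
        · rw [if_neg h1, if_neg h2] at hab; exact hab)
  have hxF : ∀ a ∈ F, x a = a := fun a ha => by
    have hne : a ≠ g y0 := fun h => hu (by rw [← h]; exact ha)
    rw [hx a (Finset.mem_insert_of_mem ha), if_neg hne]
  have hxu : x (g y0) = v := by rw [hx _ (Finset.mem_insert_self _ _), if_pos rfl]
  have hxinvF : ∀ a ∈ F, x⁻¹ a = a := fun a ha => by
    rw [Equiv.Perm.inv_eq_iff_eq]; exact (hxF a ha).symm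
  refine ⟨g⁻¹ * (x * g * x⁻¹),
    G.mul_mem (G.inv_mem hg) (G.mul_mem (G.mul_mem hxG hg) (G.inv_mem hxG)), ?_, ?_⟩
  · intro h
    have h2 : (g⁻¹ * (x * g * x⁻¹)) y0 = y0 := by rw [h]; rfl
    simp only [Equiv.Perm.mul_apply, hxinvF y0 hy0, hxu] at h2
    rw [Equiv.Perm.inv_eq_iff_eq] at h2
    exact hvu h2
  · have hsub : (g⁻¹ * (x * g * x⁻¹)).support ⊆
        (g.support ∪ (g.support \ insert (g y0) F).image x) \ A0 := by
      intro a ha
      rw [mem_support] at ha
      simp only [Equiv.Perm.mul_apply] at ha
      rw [Finset.mem_sdiff, Finset.mem_union]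
      constructor
      · by_contra hcon
        push Not at hcon
        obtain ⟨haS, haI⟩ := hcon
        have haS' : g a = a := notMem_support.1 haS
        have hginv : g⁻¹ a = a := by rw [Equiv.Perm.inv_eq_iff_eq]; exact haS'.symm
        by_cases hb : x⁻¹ a ∈ g.support
        · by_cases hbU : x⁻¹ a ∈ insert (g y0) F
          · rcases Finset.mem_insert.1 hbU with h | h
            · apply haS
              have : a = v := by
                rw [← hxu, ← h]; simp
              rw [this]; exact hvS
            · apply haS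
              have : x (x⁻¹ a) = x⁻¹ a := hxF _ h
              have h3 : a = x⁻¹ a := by simpa using this
              rw [h3]; exact hFS h
          · apply haI
            exact Finset.mem_image.2 ⟨x⁻¹ a, Finset.mem_sdiff.2 ⟨hb, hbU⟩, by simp⟩
        · apply ha
          rw [notMem_support.1 hb]
          simp [hginv]
      · intro haA
        apply ha
        rw [hxinvF a (hA0 haA), hxF _ (hA0g a haA)]
        simp
    have hA0sub : A0 ⊆ g.support ∪ (g.support \ insert (g y0) F).image x :=
      fun a ha => Finset.mem_union_left _ (hFS (hA0 ha))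
    have c1 := Finset.card_le_card hsub
    have c2 := Finset.card_sdiff_add_card_eq_card hA0sub
    have c3 := Finset.card_union_le g.support ((g.support \ insert (g y0) F).image x)
    have c4 : ((g.support \ insert (g y0) F).image x).card ≤ (g.support \ insert (g y0) F).card :=
      Finset.card_image_le
    have hUS : insert (g y0) F ⊆ g.support := Finset.insert_subset huS hFS
    have c5 := Finset.card_sdiff_add_card_eq_card hUS
    rw [Finset.card_insert_of_notMem hu] at c5
    omega

theorem exists_one_exit (g : Equiv.Perm α) (j : ℕ) (hj : j ≤ g.support.card) :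
    ∃ F ⊆ g.support, F.card = j ∧ ∀ y ∈ F, ∀ y' ∈ F, g y ∉ F → g y' ∉ F → y = y' := by
  induction j with
  | zero => exact ⟨∅, by simp, rfl, by simp⟩
  | succ j ih =>
    obtain ⟨F, hFS, hFc, hF⟩ := ih (by omega)
    by_cases hex : ∃ y0 ∈ F, g y0 ∉ F
    · obtain ⟨y0, hy0, hy0g⟩ := hex
      refine ⟨insert (g y0) F, Finset.insert_subset (apply_mem_support.2 (hFS hy0)) hFS,
        by rw [Finset.card_insert_of_notMem hy0g, hFc], ?_⟩
      have key : ∀ y ∈ insert (g y0) F, g y ∉ insert (g y0) F → y = g y0 := by
        intro y hy h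
        rcases Finset.mem_insert.1 hy with h' | hyF
        · exact h'
        · exfalso
          have hgy : g y ∉ F := fun h' => h (Finset.mem_insert_of_mem h')
          have h3 := hF y hyF y0 hy0 hgy hy0g
          rw [h3] at h
          exact h (Finset.mem_insert_self _ _)
      intro y hy y' hy' h1 h2
      rw [key y hy h1, key y' hy' h2]
    · push Not at hex
      obtain ⟨s, hsS, hsF⟩ : ∃ s ∈ g.support, s ∉ F := by
        by_contra h
        push Not at h
        have := Finset.card_le_card (show g.support ⊆ F from h)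
        omega
      refine ⟨insert s F, Finset.insert_subset hsS hFS,
        by rw [Finset.card_insert_of_notMem hsF, hFc], ?_⟩
      have key : ∀ y ∈ insert s F, g y ∉ insert s F → y = s := by
        intro y hy h
        rcases Finset.mem_insert.1 hy with h' | hyF
        · exact h'
        · exact absurd (Finset.mem_insert_of_mem (hex y hyF)) h
      intro y hy y' hy' h1 h2
      rw [key y hy h1, key y' hy' h2]

theorem step_large (G : Subgroup (Equiv.Perm α)) {k : ℕ}
    (hkn : k ≤ Fintype.card α) (hG : MulAction.IsMultiplyPretransitive G α k)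
    (g : Equiv.Perm α) (hg : g ∈ G) (h4 : 4 ≤ g.support.card)
    (hm : g.support.card + 3 ≤ 2 * k) (hmk : k + 1 ≤ g.support.card) :
    ∃ c ∈ G, c ≠ 1 ∧ c.support.card < g.support.card := by
  obtain ⟨F0, hF0S, hF0c, hF0⟩ := exists_one_exit g (k - 1) (by omega)
  have c0 := Finset.card_sdiff_add_card_eq_card hF0S
  by_cases hex : ∃ y0 ∈ F0, g y0 ∉ F0
  · obtain ⟨y0, hy0, hy0g⟩ := hex
    obtain ⟨v, hv⟩ : ((g.support \ F0).erase (g y0)).Nonempty := by
      rw [← Finset.card_pos]
      have c2 := Finset.pred_card_le_card_erase (s := g.support \ F0) (a := g y0)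
      omega
    rw [Finset.mem_erase, Finset.mem_sdiff] at hv
    obtain ⟨c, hcG, hc1, hcc⟩ := core_comm G hkn hG g hg F0 (F0.erase y0) hF0S (by omega)
      (Finset.erase_subset _ _)
      (by
        intro y hy
        rw [Finset.mem_erase] at hy
        by_contra h
        exact hy.1 (hF0 y hy.2 y0 hy0 h hy0g))
      y0 v hy0 hy0g hv.2.1 hv.2.2 hv.1
    refine ⟨c, hcG, hc1, ?_⟩
    rw [Finset.card_erase_of_mem hy0] at hcc
    omega
  · push Not at hex
    have himg : F0.image g = F0 := Finset.eq_of_subset_of_card_le
      (by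
        intro y hy
        obtain ⟨a, ha, rfl⟩ := Finset.mem_image.1 hy
        exact hex a ha)
      (by rw [Finset.card_image_of_injective _ g.injective])
    have hinv : ∀ a, g a ∈ F0 → a ∈ F0 := by
      intro a ha
      rw [← himg] at ha
      obtain ⟨b, hb, hba⟩ := Finset.mem_image.1 ha
      rw [← g.injective hba]; exact hb
    obtain ⟨t, ht⟩ : F0.Nonempty := by rw [← Finset.card_pos]; omega
    by_cases hm2 : g.support.card + 4 ≤ 2 * k
    · obtain ⟨u', hu'⟩ : (g.support \ F0).Nonempty := by rw [← Finset.card_pos]; omega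
      rw [Finset.mem_sdiff] at hu'
      have hu'e : u' ∉ F0.erase t := fun h => hu'.2 (Finset.mem_of_mem_erase h)
      have hFc : (insert u' (F0.erase t)).card = k - 1 := by
        rw [Finset.card_insert_of_notMem hu'e, Finset.card_erase_of_mem ht]; omega
      have hgu' : g u' ∉ F0 := fun h => hu'.2 (hinv _ h)
      obtain ⟨c, hcG, hc1, hcc⟩ := core_comm G hkn hG g hg (insert u' (F0.erase t))
        ((F0.erase t).erase (g⁻¹ t))
        (Finset.insert_subset hu'.1 ((Finset.erase_subset _ _).trans hF0S)) (by omega)
        ((Finset.erase_subset _ _).trans (Finset.subset_insert _ _))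
        (by
          intro y hy
          rw [Finset.mem_erase, Finset.mem_erase] at hy
          apply Finset.mem_insert_of_mem
          rw [Finset.mem_erase]
          refine ⟨fun h => hy.1 ?_, hex y hy.2.2⟩
          rw [← h]; simp)
        u' t (Finset.mem_insert_self _ _)
        (by
          intro h
          rcases Finset.mem_insert.1 h with h | h
          · exact (mem_support.1 hu'.1) h
          · exact hgu' (Finset.mem_of_mem_erase h))
        (hF0S ht)
        (by
          intro h
          rcases Finset.mem_insert.1 h with h | h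
          · exact hu'.2 (h ▸ ht)
          · exact (Finset.notMem_erase t F0) h)
        (fun h => hgu' (h ▸ ht))
      refine ⟨c, hcG, hc1, ?_⟩
      have c2 := Finset.pred_card_le_card_erase (s := F0.erase t) (a := g⁻¹ t)
      rw [Finset.card_erase_of_mem ht] at c2
      omega
    · have htR : t ∉ g.support \ F0 := fun h => (Finset.mem_sdiff.1 h).2 ht
      have hFc : (insert t (g.support \ F0)).card = k - 1 := by
        rw [Finset.card_insert_of_notMem htR]; omega
      obtain ⟨v, hv⟩ : ((F0.erase t).erase (g t)).Nonempty := by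
        rw [← Finset.card_pos]
        have c2 := Finset.pred_card_le_card_erase (s := F0.erase t) (a := g t)
        rw [Finset.card_erase_of_mem ht] at c2
        omega
      rw [Finset.mem_erase, Finset.mem_erase] at hv
      obtain ⟨c, hcG, hc1, hcc⟩ := core_comm G hkn hG g hg (insert t (g.support \ F0))
        (g.support \ F0)
        (Finset.insert_subset (hF0S ht) Finset.sdiff_subset) (by omega)
        (Finset.subset_insert _ _)
        (by
          intro y hy
          rw [Finset.mem_sdiff] at hy
          apply Finset.mem_insert_of_mem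
          rw [Finset.mem_sdiff]
          exact ⟨apply_mem_support.2 hy.1, fun h => hy.2 (hinv _ h)⟩)
        t v (Finset.mem_insert_self _ _)
        (by
          intro h
          rcases Finset.mem_insert.1 h with h | h
          · exact (mem_support.1 (hF0S ht)) h
          · exact (Finset.mem_sdiff.1 h).2 (hex t ht))
        (hF0S hv.2.2)
        (by
          intro h
          rcases Finset.mem_insert.1 h with h | h
          · exact hv.2.1 h
          · exact (Finset.mem_sdiff.1 h).2 hv.2.2)
        hv.1
      refine ⟨c, hcG, hc1, ?_⟩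
      omega

theorem step_small (G : Subgroup (Equiv.Perm α)) {k : ℕ}
    (hkn : k ≤ Fintype.card α) (hG : MulAction.IsMultiplyPretransitive G α k)
    (g : Equiv.Perm α) (hg : g ∈ G) (hg1 : g ≠ 1) (hmk : g.support.card ≤ k)
    (hmn : g.support.card < Fintype.card α) :
    ∃ c ∈ G, c ≠ 1 ∧ c.support.card ≤ 3 := by
  obtain ⟨y0, hy0⟩ : g.support.Nonempty := by
    rw [Finset.nonempty_iff_ne_empty]
    intro h
    exact hg1 (support_eq_empty_iff.1 h)
  obtain ⟨v, hv⟩ : ∃ v, v ∉ g.support := by
    by_contra h
    push Not at h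
    have : g.support = Finset.univ := Finset.eq_univ_iff_forall.2 h
    rw [this, Finset.card_univ] at hmn
    exact lt_irrefl _ hmn
  have huS : g y0 ∈ g.support := apply_mem_support.2 hy0
  obtain ⟨x, hxG, hx⟩ := exists_perm_of_injOn G hkn hG g.support hmk
    (fun a => if a = g y0 then v else a) (by
      intro a ha b hb hab
      simp only at hab
      rw [Finset.mem_coe] at ha hb
      by_cases h1 : a = g y0
      · by_cases h2 : b = g y0
        · rw [h1, h2]
        · rw [if_pos h1, if_neg h2] at hab
          rw [← hab] at hb; exact absurd hb hv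
      · by_cases h2 : b = g y0
        · rw [if_neg h1, if_pos h2] at hab
          rw [hab] at ha; exact absurd ha hv
        · rw [if_neg h1, if_neg h2] at hab; exact hab)
  have hxS : ∀ a ∈ g.support, a ≠ g y0 → x a = a := fun a ha hne => by
    rw [hx a ha, if_neg hne]
  have hxu : x (g y0) = v := by rw [hx _ huS, if_pos rfl]
  have hxinvS : ∀ a ∈ g.support, a ≠ g y0 → x⁻¹ a = a := fun a ha hne => by
    rw [Equiv.Perm.inv_eq_iff_eq]; exact (hxS a ha hne).symm
  have hgv : g⁻¹ v = v := by
    rw [Equiv.Perm.inv_eq_iff_eq]; exact (notMem_support.1 hv).symm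
  have hy0u : y0 ≠ g y0 := fun h => (mem_support.1 hy0) h.symm
  refine ⟨g⁻¹ * (x * g * x⁻¹),
    G.mul_mem (G.inv_mem hg) (G.mul_mem (G.mul_mem hxG hg) (G.inv_mem hxG)), ?_, ?_⟩
  · intro h
    have h2 : (g⁻¹ * (x * g * x⁻¹)) y0 = y0 := by rw [h]; rfl
    simp only [Equiv.Perm.mul_apply, hxinvS y0 hy0 hy0u, hxu, hgv] at h2
    exact hv (h2 ▸ hy0)
  · have hsub : (g⁻¹ * (x * g * x⁻¹)).support ⊆ {y0, g y0, v} := by
      intro a ha
      rw [mem_support] at ha
      simp only [Equiv.Perm.mul_apply] at ha
      by_contra hcon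
      simp only [Finset.mem_insert, Finset.mem_singleton, not_or] at hcon
      obtain ⟨h1, h2, h3⟩ := hcon
      apply ha
      by_cases haS : a ∈ g.support
      · rw [hxinvS a haS h2, hxS (g a) (apply_mem_support.2 haS)
          (fun h => h1 (g.injective h))]
        simp
      · have hginv : g⁻¹ a = a := by
          rw [Equiv.Perm.inv_eq_iff_eq]; exact (notMem_support.1 haS).symm
        by_cases hb : x⁻¹ a ∈ g.support
        · exfalso
          by_cases hbu : x⁻¹ a = g y0
          · apply h3
            rw [← hxu, ← hbu]; simp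
          · apply haS
            have h5 : x (x⁻¹ a) = x⁻¹ a := hxS _ hb hbu
            have h6 : a = x⁻¹ a := by simpa using h5
            rw [h6]; exact hb
        · rw [notMem_support.1 hb]
          simp [hginv]
    exact (Finset.card_le_card hsub).trans Finset.card_le_three

theorem small_support_alternating (G : Subgroup (Equiv.Perm α)) {k : ℕ} (hk : 3 ≤ k)
    (hkn : k ≤ Fintype.card α) (hG : MulAction.IsMultiplyPretransitive G α k)
    (g : Equiv.Perm α) (hg : g ∈ G) (hg1 : g ≠ 1) (hsupp : g.support.card < 2 * k - 2) :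
    (∃ h : Equiv.Perm α, h ∈ G ∧ h ≠ 1 ∧ h.support.card ≤ 3) ∧ alternatingGroup α ≤ G := by
  have key : ∀ m : ℕ, ∀ g : Equiv.Perm α, g ∈ G → g ≠ 1 → g.support.card = m → m < 2 * k - 2 →
      ∃ h : Equiv.Perm α, h ∈ G ∧ h ≠ 1 ∧ h.support.card ≤ 3 := by
    intro m
    induction m using Nat.strong_induction_on with
    | _ m ih =>
      intro g hg hg1 hgm hm
      by_cases h3 : m ≤ 3
      · exact ⟨g, hg, hg1, by omega⟩
      by_cases hmk : k + 1 ≤ m
      · obtain ⟨c, hcG, hc1, hcc⟩ := step_large G hkn hG g hg (by omega) (by omega) (by omega)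
        exact ih c.support.card (by omega) c hcG hc1 rfl (by omega)
      · by_cases hmn : m < Fintype.card α
        · obtain ⟨c, hcG, hc1, hcc⟩ := step_small G hkn hG g hg hg1 (by omega) (by omega)
          exact ⟨c, hcG, hc1, hcc⟩
        · -- k = n
          have hkn' : k = Fintype.card α := by omega
          haveI : MulAction.IsMultiplyPretransitive G α (Nat.card α - 1) :=
            MulAction.isMultiplyPretransitive_of_le (n := k)
              (by rw [Nat.card_eq_fintype_card]; omega) (by rw [Nat.card_eq_fintype_card]; exact hkn)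
          have htop : G = ⊤ := Equiv.Perm.eq_top_of_isMultiplyPretransitive this
          have h1 : 1 < Fintype.card α := by omega
          obtain ⟨a, b, hab⟩ := Fintype.exists_pair_of_one_lt_card h1
          refine ⟨Equiv.swap a b, by rw [htop]; trivial, ?_, ?_⟩
          · intro h
            exact hab (Equiv.swap_eq_one_iff.1 h)
          · rw [Equiv.Perm.card_support_swap hab]; omega
  have hex := key _ g hg hg1 rfl hsupp
  refine ⟨hex, ?_⟩
  obtain ⟨h, hhG, hh1, hh3⟩ := hex
  haveI : MulAction.IsMultiplyPretransitive G α 2 :=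
    MulAction.isMultiplyPretransitive_of_le (n := k) (by omega)
      (by rw [Nat.card_eq_fintype_card]; exact hkn)
  have hprim : MulAction.IsPreprimitive G α := MulAction.isPreprimitive_of_is_two_pretransitive this
  have h0 : h.support.card ≠ 0 := by
    intro h0
    exact hh1 (support_eq_empty_iff.1 (Finset.card_eq_zero.1 h0))
  have h1 : h.support.card ≠ 1 := card_support_ne_one h
  have h23 : h.support.card = 2 ∨ h.support.card = 3 := by omega
  rcases h23 with h2 | h3
  · have := Equiv.Perm.subgroup_eq_top_of_isPreprimitive_of_isSwap_mem hprim h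
      (card_support_eq_two.1 h2) hhG
    rw [this]; exact le_top
  · exact Equiv.Perm.alternatingGroup_le_of_isPreprimitive_of_isThreeCycle_mem hprim
      (card_support_eq_three_iff.1 h3) hhG

end Cfsg.H1
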