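import Mathlib
import Cfsg.Agent.H1.Class2
import Cfsg.Agent.H1.Small2
import Cfsg.Agent.H1.Compl

set_option autoImplicit false

namespace Cfsg.H1

open Subgroup
open scoped commutatorElement

section

variable {G : Type*} [Group G] [Finite G] {p : ℕ} [hp : Fact p.Prime]

theorem special_aut_central (A : Subgroup (MulAut G))
    (hGA : Subgroup.closure {x : G | ∃ g : G, ∃ a ∈ A, x = g⁻¹ * a g} = ⊤)
    (H : Subgroup G) (hHn : H.Normal) (hfix : ∀ a ∈ A, ∀ h ∈ H, a h = h) : H ≤ center G := by
  have : centralizer (H : Set G) = ⊤ := by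
    rw [eq_top_iff, ← hGA, closure_le]
    rintro x ⟨g, a, ha, rfl⟩
    rw [SetLike.mem_coe, mem_centralizer_iff]
    intro c hc
    have h1 : a (g * c * g⁻¹) = g * c * g⁻¹ := hfix a ha _ (hHn.conj_mem c hc g)
    have h2 : a c = c := hfix a ha c hc
    rw [map_mul, map_mul, map_inv, h2] at h1
    calc c * (g⁻¹ * a g) = g⁻¹ * (g * c * g⁻¹) * a g := by group
      _ = g⁻¹ * (a g * c * (a g)⁻¹) * a g := by rw [h1]
      _ = _ := by group
  exact centralizer_eq_top_iff_subset.1 this

theorem class_two_of_char_abelian_central [Group.IsNilpotent G]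
    (hcentral : ∀ H : Subgroup G, H.Characteristic → IsMulCommutative H → H ≤ center G) :
    ⁅commutator G, (⊤ : Subgroup G)⁆ = ⊥ := by
  classical
  have hnil := (Subgroup.nilpotent_iff_lowerCentralSeries (G := G)).1 inferInstance
  rw [← top_lowerCentralSeries_one, ← Subgroup.lowerCentralSeries_succ]
  by_contra hne
  have hn : Subgroup.lowerCentralSeries (⊤ : Subgroup G) (Nat.find hnil) = ⊥ := Nat.find_spec hnil
  have hn3 : 3 ≤ Nat.find hnil := by
    by_contra h
    have h2 : Nat.find hnil ≤ 1 + 1 := by omega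
    exact hne (eq_bot_iff.2 (hn ▸ Subgroup.lowerCentralSeries_antitone _ h2))
  obtain ⟨m, hm⟩ : ∃ m, Nat.find hnil = m + 3 := ⟨Nat.find hnil - 3, by omega⟩
  have hmin : Subgroup.lowerCentralSeries (⊤ : Subgroup G) (m + 2) ≠ ⊥ := Nat.find_min hnil (by omega)
  rw [hm] at hn
  have hT2 : ⁅⁅Subgroup.lowerCentralSeries (⊤ : Subgroup G) (m + 1), (⊤ : Subgroup G)⁆, (⊤ : Subgroup G)⁆ = ⊥ := hn
  have hTG' : Subgroup.lowerCentralSeries (⊤ : Subgroup G) (m + 1) ≤ ⁅(⊤ : Subgroup G), ⊤⁆ := by
    have := Subgroup.lowerCentralSeries_antitone (⊤ : Subgroup G) (show 1 ≤ m + 1 by omega)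
    exact this
  have hchar : (Subgroup.lowerCentralSeries (⊤ : Subgroup G) (m + 1)).Characteristic := inferInstance
  apply hmin
  change ⁅Subgroup.lowerCentralSeries (⊤ : Subgroup G) (m + 1), (⊤ : Subgroup G)⁆ = ⊥
  generalize Subgroup.lowerCentralSeries (⊤ : Subgroup G) (m + 1) = T at *
  have h3 : ⁅⁅(⊤ : Subgroup G), ⊤⁆, T⁆ = ⊥ :=
    commutator_commutator_eq_bot_of_rotate (by rw [commutator_comm ⊤ T]; exact hT2) hT2
  have hTa : IsMulCommutative T := by
    apply isMulCommutative_of_commutator_eq_bot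
    rw [eq_bot_iff, ← h3]
    exact commutator_mono hTG' le_rfl
  have hTc := hcentral T hchar hTa
  rw [commutator_eq_bot_iff_le_centralizer, coe_top, centralizer_univ]
  exact hTc

theorem special_aut_fixed_le_commutator (hG : IsPGroup p G) (A : Subgroup (MulAut G))
    (hA : Nat.Coprime (Nat.card A) p)
    (hGA : Subgroup.closure {x : G | ∃ g : G, ∃ a ∈ A, x = g⁻¹ * a g} = ⊤)
    (g : G) (hg : ∀ a ∈ A, a g = g) : g ∈ commutator G := by
  classical
  haveI : Finite A := Nat.finite_of_card_ne_zero (by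
    intro h
    rw [h, Nat.coprime_zero_left] at hA
    exact hp.out.one_lt.ne' hA)
  haveI : Fintype A := Fintype.ofFinite A
  let N : G →* Abelianization G :=
    { toFun := fun g => ∏ a : A, Abelianization.of ((a : MulAut G) g)
      map_one' := by simp
      map_mul' := by intro x y; simp [Finset.prod_mul_distrib] }
  have hNa : ∀ g, N g = ∏ a : A, Abelianization.of ((a : MulAut G) g) := fun g => rfl
  have hN1 : ∀ (g : G) (b : A), N ((b : MulAut G) g) = N g := by
    intro g b
    rw [hNa, hNa]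
    exact Fintype.prod_equiv (Equiv.mulRight b) _ _ (fun a => rfl)
  have hN : N.ker = ⊤ := by
    rw [eq_top_iff, ← hGA, closure_le]
    rintro x ⟨g, a, ha, rfl⟩
    rw [SetLike.mem_coe, MonoidHom.mem_ker, map_mul, map_inv, hN1 g ⟨a, ha⟩, inv_mul_cancel]
  have h1 : N g = (Abelianization.of g) ^ (Nat.card A) := by
    rw [hNa, Finset.prod_congr rfl (fun a _ => by rw [hg a a.2]), Finset.prod_const,
      Finset.card_univ, Nat.card_eq_fintype_card]
  have h2 : (Abelianization.of g) ^ (Nat.card A) = 1 := by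
    rw [← h1, ← MonoidHom.mem_ker, hN]; exact mem_top g
  obtain ⟨k, hk⟩ := hG g
  have h3 : (Abelianization.of g) ^ (p ^ k) = 1 := by rw [← map_pow, hk, map_one]
  have h4 : (Abelianization.of g) ^ (Nat.gcd (Nat.card A) (p ^ k)) = 1 :=
    pow_gcd_eq_one.2 ⟨h2, h3⟩
  rw [Nat.Coprime.pow_right k hA, pow_one] at h4
  rw [← Abelianization.ker_of, MonoidHom.mem_ker]
  exact h4

theorem pow_mem_center_of_char_abelian_central (hG : IsPGroup p G)
    (hcentral : ∀ H : Subgroup G, H.Characteristic → IsMulCommutative H → H ≤ center G)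
    (hcl : ∀ x y : G, ⁅x, y⁆ ∈ center G) (x : G) : x ^ p ∈ center G := by
  classical
  have hex : ∃ e : ℕ, ∀ x : G, x ^ p ^ e ∈ center G := by
    obtain ⟨k, hk⟩ := hG.exists_card_eq
    exact ⟨k, fun x => by rw [← hk, pow_card_eq_one']; exact one_mem _⟩
  have hspec := Nat.find_spec hex
  have hle : Nat.find hex ≤ 1 := by
    by_contra hlt
    obtain ⟨e, he⟩ : ∃ e, Nat.find hex = e + 2 := ⟨Nat.find hex - 2, by omega⟩
    apply Nat.find_min hex (m := e + 1) (by omega)
    rw [he] at hspec
    have hcomm : ∀ u v : G, Commute ⁅u, v⁆ u ∧ Commute ⁅u, v⁆ v := fun u v =>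
      ⟨(mem_center_iff.1 (hcl u v) u).symm, (mem_center_iff.1 (hcl u v) v).symm⟩
    have hgen : ∀ a b : G, a ^ p ^ (e + 1) * b ^ p ^ (e + 1) = b ^ p ^ (e + 1) * a ^ p ^ (e + 1) := by
      intro a b
      set u := a ^ p ^ (e + 1) with hu
      have hup : u ^ p ∈ center G := by
        rw [hu, ← pow_mul, ← pow_succ]; exact hspec a
      have h1 : ⁅u, b⁆ ^ p = 1 := by
        rw [← commutator_pow_left_of_central (hcomm u b).2 (hcomm u b).1 p,
          commutatorElement_eq_one_iff_mul_comm]
        exact (mem_center_iff.1 hup b).symm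
      have h2 : ⁅b, u⁆ ^ p = 1 := by
        rw [← commutatorElement_inv, inv_pow, h1, inv_one]
      have h3 : ⁅b ^ p ^ (e + 1), u⁆ = 1 := by
        rw [commutator_pow_left_of_central (hcomm b u).2 (hcomm b u).1, pow_succ, mul_comm,
          pow_mul, h2, one_pow]
      exact (commutatorElement_eq_one_iff_mul_comm.1 h3).symm
    have hH := hcentral (closure {y : G | ∃ a : G, y = a ^ p ^ (e + 1)}) ?_ ?_
    · intro x
      exact hH (Subgroup.subset_closure ⟨x, rfl⟩)
    · rw [characteristic_iff_map_le]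
      intro φ
      rw [MonoidHom.map_closure, closure_le]
      rintro _ ⟨_, ⟨a, rfl⟩, rfl⟩
      apply Subgroup.subset_closure
      exact ⟨φ a, by simp⟩
    · apply isMulCommutative_closure
      rintro _ ⟨a, rfl⟩ _ ⟨b, rfl⟩
      exact hgen a b
  have h1 := hspec x
  rcases Nat.le_one_iff_eq_zero_or_eq_one.1 hle with h | h
  · rw [h, pow_zero, pow_one] at h1
    exact pow_mem h1 p
  · rwa [h, pow_one] at h1

/-- S0119 -/
theorem special_of_coprime_aut (hG : IsPGroup p G) (A : Subgroup (MulAut G))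
    (hA : Nat.Coprime (Nat.card A) p)
    (hGA : Subgroup.closure {x : G | ∃ g : G, ∃ a ∈ A, x = g⁻¹ * a g} = ⊤)
    (hchar : ∀ H : Subgroup G, H.Characteristic → IsMulCommutative H → ∀ a ∈ A, ∀ h ∈ H, a h = h) :
    (IsPGroup p G ∧ frattini G = Subgroup.center G ∧ commutator G = Subgroup.center G) ∧
      (∀ g : G, (g ∈ Subgroup.center G ↔ ∀ a ∈ A, a g = g)) := by
  haveI := hG.isNilpotent
  have hcentral : ∀ H : Subgroup G, H.Characteristic → IsMulCommutative H → H ≤ center G :=
    fun H hHc hHa => special_aut_central A hGA H inferInstance (hchar H hHc hHa)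
  have hcl2 := class_two_of_char_abelian_central hcentral
  have hcl : ∀ x y : G, ⁅x, y⁆ ∈ center G := commutator_mem_center_of_class_two hcl2
  have hG'Z : commutator G ≤ center G := by
    rw [commutator_eq_bot_iff_le_centralizer, coe_top, centralizer_univ] at hcl2
    exact hcl2
  have hZfix : ∀ g ∈ center G, ∀ a ∈ A, a g = g := fun g hg a ha =>
    hchar (center G) inferInstance inferInstance a ha g hg
  have hfix := special_aut_fixed_le_commutator hG A hA hGA
  have hG'eq : commutator G = center G :=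
    le_antisymm hG'Z (fun z hz => hfix z (hZfix z hz))
  refine ⟨⟨hG, ?_, hG'eq⟩, fun g => ⟨hZfix g, fun h => hG'Z (hfix g h)⟩⟩
  apply le_antisymm
  · exact frattini_pgroup_le p (center G) hG'Z
      (pow_mem_center_of_char_abelian_central hG hcentral hcl)
  · rw [← hG'eq]
    exact (frattini_pgroup_ge p hG).1

end

end Cfsg.H1
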