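import Mathlib
import Cfsg.Agent.H1.HallConverse
import Cfsg.Agent.H1.SylowSystem

set_option autoImplicit false

namespace Cfsg.H1

open Subgroup
open scoped Pointwise

variable {G : Type*} [Group G]

/-- Permutable subgroups: the join is the set product. -/
theorem coe_sup_of_mul_comm {A B : Subgroup G} (h : (A : Set G) * (B : Set G) = (B : Set G) * A) :
    ((A ⊔ B : Subgroup G) : Set G) = (A : Set G) * (B : Set G) := by
  let T : Subgroup G :=
    { carrier := (A : Set G) * (B : Set G)
      mul_mem' := by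
        rintro _ _ ⟨a, ha, b, hb, rfl⟩ ⟨a', ha', b', hb', rfl⟩
        have h1 : b * a' ∈ (A : Set G) * (B : Set G) := h ▸ Set.mul_mem_mul hb ha'
        obtain ⟨a'', ha'', b'', hb'', h2⟩ := h1
        replace h2 : a'' * b'' = b * a' := h2
        refine ⟨a * a'', A.mul_mem ha ha'', b'' * b', B.mul_mem hb'' hb', ?_⟩
        calc a * a'' * (b'' * b') = a * (a'' * b'') * b' := by group
          _ = a * (b * a') * b' := by rw [h2]
          _ = _ := by group
      one_mem' := ⟨1, A.one_mem, 1, B.one_mem, mul_one 1⟩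
      inv_mem' := by
        rintro _ ⟨a, ha, b, hb, rfl⟩
        rw [h]
        exact ⟨b⁻¹, B.inv_mem hb, a⁻¹, A.inv_mem ha, (mul_inv_rev a b).symm⟩ }
  apply Set.Subset.antisymm
  · have : A ⊔ B ≤ T := sup_le (fun a ha => ⟨a, ha, 1, B.one_mem, mul_one a⟩)
      (fun b hb => ⟨1, A.one_mem, b, hb, one_mul b⟩)
    exact this
  · rintro _ ⟨a, ha, b, hb, rfl⟩
    exact mul_mem_sup ha hb

theorem card_sup_of_mul_comm {A B : Subgroup G}
    (h : (A : Set G) * (B : Set G) = (B : Set G) * A) (hd : Disjoint A B) :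
    Nat.card (A ⊔ B : Subgroup G) = Nat.card A * Nat.card B := by
  have hc : IsComplement' (A.subgroupOf (A ⊔ B)) (B.subgroupOf (A ⊔ B)) := by
    apply isComplement'_of_disjoint_and_mul_eq_univ
    · rw [Subgroup.disjoint_def]
      intro x hx1 hx2
      exact Subtype.ext ((Subgroup.disjoint_def.1 hd) (mem_subgroupOf.1 hx1)
        (mem_subgroupOf.1 hx2))
    · apply Set.eq_univ_of_forall
      intro l
      have hl : (l : G) ∈ (A : Set G) * B := by
        rw [← coe_sup_of_mul_comm h]; exact l.2
      obtain ⟨k, hk, a, ha, hka⟩ := Set.mem_mul.1 hl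
      exact Set.mem_mul.2 ⟨⟨k, le_sup_left (a := A) (b := B) hk⟩, hk,
        ⟨a, le_sup_right (a := A) (b := B) ha⟩, ha, Subtype.ext hka⟩
  have := hc.card_mul_card
  rw [card_subgroupOf_of_le le_sup_left, card_subgroupOf_of_le le_sup_right] at this
  exact this.symm

theorem perm_finset_sup (S : ℕ → Subgroup G)
    (hS : ∀ p q : ℕ, (S p : Set G) * (S q : Set G) = (S q : Set G) * (S p : Set G))
    (s : Finset ℕ) : ∀ a : ℕ, (S a : Set G) * ((s.sup S : Subgroup G) : Set G) =
      ((s.sup S : Subgroup G) : Set G) * (S a : Set G) := by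
  classical
  induction s using Finset.induction_on with
  | empty =>
    intro a
    simp
  | insert b s hb ih =>
    intro a
    rw [Finset.sup_insert, coe_sup_of_mul_comm (ih b), ← mul_assoc, hS a b, mul_assoc, ih a,
      mul_assoc]

theorem card_finset_sup [Finite G] (v : ℕ → ℕ) (S : ℕ → Subgroup G)
    (hS : ∀ p q : ℕ, (S p : Set G) * (S q : Set G) = (S q : Set G) * (S p : Set G))
    (hcard : ∀ q : ℕ, q.Prime → Nat.card (S q) = q ^ v q)
    (s : Finset ℕ) (hs : ∀ q ∈ s, q.Prime) :
    Nat.card (s.sup S : Subgroup G) = ∏ q ∈ s, q ^ v q := by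
  classical
  induction s using Finset.induction_on with
  | empty => simp
  | insert a s ha ih =>
    have hs' : ∀ q ∈ s, q.Prime := fun q hq => hs q (Finset.mem_insert_of_mem hq)
    have hap : a.Prime := hs a (Finset.mem_insert_self a s)
    rw [Finset.sup_insert, Finset.prod_insert ha, ← ih hs', ← hcard a hap]
    apply card_sup_of_mul_comm (perm_finset_sup S hS s a)
    apply disjoint_of_coprime_natCard
    rw [hcard a hap, ih hs']
    apply Nat.Coprime.prod_right
    intro q hq
    exact Nat.coprime_pow_primes _ _ hap (hs' q hq) (fun h => ha (h ▸ hq))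

/-- S0021 -/
theorem solvable_of_sylow_system [Finite G]
    (S : (p : Nat.Primes) → Sylow (p : ℕ) G)
    (hS : ∀ p q : Nat.Primes, (S p : Set G) * (S q : Set G) = (S q : Set G) * (S p : Set G)) :
    Group.IsSolvable G := by
  classical
  apply hall_converse_aux _ G le_rfl
  intro p hp
  have hne : Nat.card G ≠ 0 := Nat.card_pos.ne'
  let v : ℕ → ℕ := fun q => (Nat.card G).factorization q
  let S' : ℕ → Subgroup G := fun q => if h : q.Prime then (S ⟨q, h⟩ : Subgroup G) else ⊥
  have hS' : ∀ p q : ℕ, (S' p : Set G) * (S' q : Set G) = (S' q : Set G) * (S' p : Set G) := by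
    intro p q
    by_cases h1 : p.Prime
    · by_cases h2 : q.Prime
      · simp only [S', dif_pos h1, dif_pos h2]
        exact hS ⟨p, h1⟩ ⟨q, h2⟩
      · simp [S', dif_neg h2]
    · simp [S', dif_neg h1]
  have hcard : ∀ q : ℕ, q.Prime → Nat.card (S' q) = q ^ v q := by
    intro q hq
    have : Fact q.Prime := ⟨hq⟩
    simp only [S', dif_pos hq]
    exact (S ⟨q, hq⟩).card_eq_multiplicity
  let π := (Nat.card G).primeFactors
  have hπ : ∀ q ∈ π, q.Prime := fun q hq => Nat.prime_of_mem_primeFactors hq
  have hv : ∀ q, q ∉ π → v q = 0 := by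
    intro q hq
    have hq' : q ∉ (Nat.card G).factorization.support := by
      rw [Nat.support_factorization]; exact hq
    exact Finsupp.notMem_support_iff.1 hq'
  have hprod : ∏ r ∈ π, r ^ v r = Nat.card G := Nat.prod_factorization_pow_eq_self hne
  refine ⟨(π.erase p).sup S', ?_⟩
  have h1 := ((π.erase p).sup S').index_mul_card
  rw [card_finset_sup v S' hS' hcard _ (fun q hq => hπ q (Finset.mem_of_mem_erase hq)), ← hprod,
    ← pow_mul_prod_erase v π p (hv p)] at h1
  have hpos : 0 < ∏ r ∈ π.erase p, r ^ v r :=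
    Finset.prod_pos (fun r hr => pow_pos (hπ r (Finset.mem_of_mem_erase hr)).pos _)
  exact Nat.eq_of_mul_eq_mul_right hpos h1

end Cfsg.H1
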