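import Mathlib
import Cfsg.Prelude.Def_Transfer
import Cfsg.Agent.H1.Transfer3

set_option autoImplicit false

namespace Cfsg.H1

open Subgroup
open scoped Pointwise commutatorElement

variable {G : Type*} [Group G]

theorem commutator_le_of_sup_eq_top' (N P : Subgroup G) [N.Normal]
    (h : N ⊔ P = ⊤) (hc : ⁅P, P⁆ ≤ N) : commutator G ≤ N := by
  rw [← Normal.quotient_commutative_iff_commutator_le]
  refine ⟨⟨fun a b => ?_⟩⟩
  obtain ⟨a, rfl⟩ := QuotientGroup.mk'_surjective N a
  obtain ⟨b, rfl⟩ := QuotientGroup.mk'_surjective N b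
  have key : ∀ a : G, ∃ u ∈ P, QuotientGroup.mk' N a = QuotientGroup.mk' N u := by
    intro a
    have ha : a ∈ N ⊔ P := h ▸ mem_top a
    rw [← SetLike.mem_coe, normal_mul] at ha
    obtain ⟨n, hn, u, hu, rfl⟩ := Set.mem_mul.1 ha
    refine ⟨u, hu, ?_⟩
    have hn1 : QuotientGroup.mk' N n = 1 := (QuotientGroup.eq_one_iff n).2 hn
    rw [map_mul, hn1, one_mul]
  obtain ⟨u, hu, hau⟩ := key a
  obtain ⟨v, hv, hbv⟩ := key b
  rw [hau, hbv, ← map_mul, ← map_mul]
  have h1 : ⁅u, v⁆ ∈ N := hc (commutator_mem_commutator hu hv)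
  have h2 : QuotientGroup.mk' N ⁅u, v⁆ = 1 := (QuotientGroup.eq_one_iff _).2 h1
  have h3 : u * v = ⁅u, v⁆ * (v * u) := by rw [commutatorElement_def]; group
  rw [h3, map_mul, h2, one_mul]

/-- the kernel of the focal transfer when the index is prime to `|H : H'|`. -/
theorem focal_transfer_kernel [Finite G] (H : Subgroup G)
    (h : Nat.Coprime H.index (⁅H, H⁆.relIndex H)) :
    ∃ N : Subgroup G, N.Normal ∧ N ⊓ H = focalSubgroup H ∧ N ⊔ H = ⊤ ∧ commutator G ≤ N := by
  have hcard : Nat.card (H ⧸ H.focalSubgroupOf) ∣ ⁅H, H⁆.relIndex H := by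
    rw [← index_eq_card, focalSubgroupOf_def]
    exact relIndex_dvd_of_le_left H H.commutator_le_focalSubgroup
  have hcop : (Nat.card (H ⧸ H.focalSubgroupOf)).Coprime H.index :=
    (Nat.Coprime.coprime_dvd_right hcard h).symm
  have hV : ∀ x : H, H.transferFocal x = powCoprime hcop (x : H ⧸ H.focalSubgroupOf) :=
    fun x => H.transferFocal_eq_pow x
  refine ⟨H.transferFocal.ker, inferInstance, ?_, ?_, ?_⟩
  · ext x
    constructor
    · rintro ⟨hx1, hx2⟩
      have h1 : H.transferFocal x = 1 := hx1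
      have h2 := hV ⟨x, hx2⟩
      rw [h1] at h2
      have h3 : powCoprime hcop (1 : H ⧸ H.focalSubgroupOf) = 1 := by simp
      rw [← h3] at h2
      have h4 := (powCoprime hcop).injective h2
      have h5 : (⟨x, hx2⟩ : H) ∈ H.focalSubgroupOf := (QuotientGroup.eq_one_iff _).1 h4.symm
      exact h5
    · intro hx
      have hx2 : x ∈ H := H.focalSubgroup_le hx
      refine ⟨?_, hx2⟩
      change H.transferFocal x = 1
      have h2 := hV ⟨x, hx2⟩
      have h5 : ((⟨x, hx2⟩ : H) : H ⧸ H.focalSubgroupOf) = 1 :=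
        (QuotientGroup.eq_one_iff _).2 hx
      rw [h5] at h2
      rw [h2]; simp
  · rw [eq_top_iff]
    intro g _
    obtain ⟨z, hz⟩ := (powCoprime hcop).surjective (H.transferFocal g)
    obtain ⟨x, rfl⟩ := QuotientGroup.mk'_surjective _ z
    have h1 : H.transferFocal x = H.transferFocal g := (hV x).trans hz
    have h2 : g * (x : G)⁻¹ ∈ H.transferFocal.ker := by
      rw [MonoidHom.mem_ker, map_mul, map_inv, h1, mul_inv_cancel]
    have : g = (g * (x : G)⁻¹) * x := by group
    rw [this]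
    exact mul_mem (le_sup_left (a := H.transferFocal.ker) h2) (le_sup_right (b := H) x.2)
  · rw [← Normal.quotient_commutative_iff_commutator_le]
    refine ⟨⟨fun a b => ?_⟩⟩
    apply QuotientGroup.kerLift_injective H.transferFocal
    rw [map_mul, map_mul]
    exact mul_comm' _ _

/-- S0080 -/
theorem focal_of_coprime_index [Finite G] (H : Subgroup G)
    (h : Nat.Coprime H.index (⁅H, H⁆.relIndex H)) :
    Subgroup.focalSubgroup H = commutator G ⊓ H ∧
      ∃ N : Subgroup G, N.Normal ∧ N ⊓ H = commutator G ⊓ H ∧ N ⊔ H = ⊤ := by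
  obtain ⟨N, hN, h1, h2, h3⟩ := focal_transfer_kernel H h
  have h4 : Subgroup.focalSubgroup H = commutator G ⊓ H := by
    apply le_antisymm (le_inf H.focalSubgroup_le_commutator H.focalSubgroup_le)
    rw [← h1]
    exact inf_le_inf_right _ h3
  exact ⟨h4, N, hN, h1.trans h4, h2⟩

/-- S0131 -/
theorem sylow_abelianization_complement_iff [Finite G] {p : ℕ} [Fact p.Prime] (P : Sylow p G) :
    (∃ N : Subgroup G, N.Normal ∧ N ⊓ (P : Subgroup G) = ⁅(P : Subgroup G), (P : Subgroup G)⁆ ∧
      N ⊔ (P : Subgroup G) = ⊤) ↔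
    commutator G ⊓ (P : Subgroup G) = ⁅(P : Subgroup G), (P : Subgroup G)⁆ := by
  constructor
  · rintro ⟨N, hN, h1, h2⟩
    apply le_antisymm
    · rw [← h1]
      exact inf_le_inf_right _ (commutator_le_of_sup_eq_top' N P h2 (h1 ▸ inf_le_left))
    · exact le_inf (commutator_mono le_top le_top) (commutator_le_self _)
  · intro h
    have hcop : Nat.Coprime (P : Subgroup G).index
        (⁅(P : Subgroup G), (P : Subgroup G)⁆.relIndex (P : Subgroup G)) :=
      Nat.Coprime.coprime_dvd_right (relIndex_dvd_card _ _) P.card_coprime_index.symm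
    obtain ⟨-, N, hN, h1, h2⟩ := focal_of_coprime_index (P : Subgroup G) hcop
    exact ⟨N, hN, h1.trans h, h2⟩

end Cfsg.H1
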