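import Mathlib
import Cfsg.Prelude.Def_Transfer
import Cfsg.Agent.H1.Transfer6
import Cfsg.Agent.H1.Small2

set_option autoImplicit false

namespace Cfsg.H1

open Subgroup
open scoped Pointwise commutatorElement

variable {G : Type*} [Group G]

/-- S0105 -/
theorem abelian_sylow_quotient [Finite G] {p : ℕ} [Fact p.Prime] (P : Sylow p G)
    (hP : IsMulCommutative P) :
    ∃ (N : Subgroup G) (hN : N.Normal), Nonempty (G ⧸ N ≃*
      ((P : Subgroup G) ⊓ Subgroup.centralizer (Subgroup.normalizer (P : Set G) : Set G) :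
        Subgroup G)) := by
  have hcop : (Nat.card (P : Subgroup G)).Coprime
      ((P : Subgroup G).relIndex (normalizer (P : Set G))) :=
    Nat.Coprime.coprime_dvd_right (relIndex_dvd_index_of_le le_normalizer) P.card_coprime_index
  obtain ⟨h1, h2⟩ := abelian_normal_hall_decomp (P : Subgroup G) (normalizer (P : Set G))
    le_normalizer le_rfl hcop
  rw [← abelian_sylow_focal_eq P hP, commutator_inf_eq_focalSubgroup] at h1 h2
  set C : Subgroup G :=
    (P : Subgroup G) ⊓ Subgroup.centralizer (Subgroup.normalizer (P : Set G) : Set G) with hC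
  let f : C →* (P : Subgroup G) ⧸ (P : Subgroup G).focalSubgroupOf :=
    (QuotientGroup.mk' _).comp (inclusion (inf_le_left : C ≤ (P : Subgroup G)))
  have hf : Function.Bijective f := by
    constructor
    · rw [injective_iff_map_eq_one]
      intro c hc
      have h3 : (inclusion (inf_le_left : C ≤ (P : Subgroup G)) c) ∈
          (P : Subgroup G).focalSubgroupOf := (QuotientGroup.eq_one_iff _).1 hc
      have h4 : (c : G) ∈ C ⊓ (P : Subgroup G).focalSubgroup := ⟨c.2, h3⟩
      rw [h1, mem_bot] at h4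
      exact Subtype.ext h4
    · intro y
      obtain ⟨x, rfl⟩ := QuotientGroup.mk'_surjective _ y
      have hx : (x : G) ∈ C ⊔ (P : Subgroup G).focalSubgroup := by rw [h2]; exact x.2
      have hnorm : (P : Subgroup G).focalSubgroup ≤ normalizer (C : Set G) := by
        intro w hw
        have hwP : w ∈ (P : Subgroup G) := (P : Subgroup G).focalSubgroup_le hw
        rw [mem_normalizer_iff]
        intro c
        have hcomm : ∀ c ∈ (P : Subgroup G), w * c * w⁻¹ = c := by
          intro c hc
          have : w * c = c * w := congrArg Subtype.val (mul_comm' (⟨w, hwP⟩ : P) ⟨c, hc⟩)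
          rw [this]; simp
        constructor
        · intro hc
          rw [hcomm c hc.1]; exact hc
        · intro hc
          have hcP : c ∈ (P : Subgroup G) := by
            have := mul_mem (mul_mem (inv_mem hwP) hc.1) hwP
            simpa [mul_assoc] using this
          rw [hcomm c hcP] at hc; exact hc
      have hx' : (x : G) ∈ (C : Set G) * (P : Subgroup G).focalSubgroup := by
        rw [← coe_mul_of_right_le_normalizer_left C _ hnorm]; exact hx
      obtain ⟨c, hc, w, hw, hcw⟩ := Set.mem_mul.1 hx'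
      refine ⟨⟨c, hc⟩, ?_⟩
      change QuotientGroup.mk' _ _ = QuotientGroup.mk' _ _
      rw [QuotientGroup.mk'_eq_mk']
      refine ⟨⟨w, (P : Subgroup G).focalSubgroup_le hw⟩, hw, ?_⟩
      exact Subtype.ext hcw
  exact ⟨(P : Subgroup G).transferFocal.ker, inferInstance,
    ⟨(transferFocal.quotientKerMulEquivQuotientFocalSubroupOf P).trans
      (MulEquiv.ofBijective f hf).symm⟩⟩

/-- central elements of a perfect group lying in a Sylow subgroup lie in its derived subgroup. -/
theorem center_inf_sylow_le_commutator {H : Type*} [Group H] [Finite H]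
    (hH : commutator H = ⊤) {p : ℕ} [Fact p.Prime] (P : Sylow p H) :
    center H ⊓ (P : Subgroup H) ≤ ⁅(P : Subgroup H), (P : Subgroup H)⁆ := by
  rintro x ⟨hxZ, hxP⟩
  let ϕ : (P : Subgroup H) →* Abelianization (P : Subgroup H) := Abelianization.of
  have h1 : MonoidHom.transfer ϕ x = 1 := by
    have := Abelianization.commutator_subset_ker (MonoidHom.transfer ϕ)
    rw [hH] at this
    exact this (mem_top x)
  have key : ∀ (k : ℕ) (g₀ : H), g₀⁻¹ * x ^ k * g₀ ∈ (P : Subgroup H) →
      g₀⁻¹ * x ^ k * g₀ = x ^ k := by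
    intro k g₀ _
    have : x ^ k ∈ center H := pow_mem hxZ k
    rw [mem_center_iff] at this
    rw [mul_assoc, ← this g₀]; simp
  rw [MonoidHom.transfer_eq_pow _ x key] at h1
  have h2 : ϕ ⟨x, hxP⟩ ^ (P : Subgroup H).index = 1 := by
    rw [← map_pow]; exact h1
  have hq : IsPGroup p (Abelianization (P : Subgroup H)) := P.2.to_quotient _
  obtain ⟨k, hk⟩ := hq (ϕ ⟨x, hxP⟩)
  have h3 : ϕ ⟨x, hxP⟩ = 1 := by
    have := pow_gcd_eq_one.2 ⟨h2, hk⟩
    have hc : Nat.gcd (P : Subgroup H).index (p ^ k) = 1 :=
      Nat.Coprime.pow_right k ((Nat.Prime.coprime_iff_not_dvd Fact.out).2 P.not_dvd_index).symm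
    rwa [hc, pow_one] at this
  have h4 : (⟨x, hxP⟩ : (P : Subgroup H)) ∈ commutator (P : Subgroup H) :=
    (QuotientGroup.eq_one_iff _).1 h3
  rw [← map_subtype_commutator]
  exact ⟨_, h4, rfl⟩

/-- S0101 -/
theorem perfect_central_ext_ker_le_frattini {H : Type*} {G : Type*} [Group H] [Group G] [Finite H]
    (σ : H →* G) (hc : σ.ker ≤ Subgroup.center H)
    (hH : commutator H = ⊤) {p : ℕ} [Fact p.Prime] (P : Sylow p H) :
    σ.ker ⊓ (P : Subgroup H) ≤ (frattini P).map (P : Subgroup H).subtype := by
  refine (inf_le_inf_right _ hc).trans ((center_inf_sylow_le_commutator hH P).trans ?_)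
  rw [← map_subtype_commutator]
  exact map_mono (frattini_pgroup_ge p P.2).1

/-- S0102 -/
theorem perfect_central_ext_cyclic_sylow {G : Type*} {H : Type*} [Group G] [Group H] [Finite G]
    [Finite H] {p : ℕ} [Fact p.Prime]
    (hcyc : ∀ P : Sylow p G, IsCyclic P) (σ : H →* G) (hσ : Function.Surjective σ)
    (hz : σ.ker ≤ Subgroup.center H) (hH : commutator H = ⊤) : ¬ p ∣ Nat.card σ.ker := by
  intro hdvd
  obtain ⟨⟨z, hz1⟩, hzp⟩ := exists_prime_orderOf_dvd_card' p hdvd
  rw [Subgroup.orderOf_mk] at hzp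
  have hzg : IsPGroup p (zpowers z) := by
    apply IsPGroup.of_card (n := 1)
    rw [Nat.card_zpowers, hzp, pow_one]
  obtain ⟨P, hP⟩ := hzg.exists_le_sylow
  have hzP : z ∈ (P : Subgroup H) := hP (mem_zpowers z)
  have hcy : IsCyclic ((P : Subgroup H).map σ) := hcyc (P.mapSurjective hσ)
  let f : (P : Subgroup H) →* ((P : Subgroup H).map σ) := σ.subgroupMap (P : Subgroup H)
  have hf : f.ker ≤ center (P : Subgroup H) := by
    intro x hx
    have h1 : σ x = 1 := congrArg Subtype.val hx
    have h2 := hz h1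
    rw [mem_center_iff] at h2 ⊢
    intro g
    exact Subtype.ext (h2 g)
  have hcomm : IsMulCommutative (P : Subgroup H) :=
    MonoidHom.isMulCommutative_of_isCyclic_of_ker_le_center f hf
  have h1 := center_inf_sylow_le_commutator hH P ⟨hz hz1, hzP⟩
  have h2 : ⁅(P : Subgroup H), (P : Subgroup H)⁆ = ⊥ := by
    rw [commutator_eq_bot_iff_le_centralizer]
    exact le_centralizer _
  rw [h2, mem_bot] at h1
  rw [h1, orderOf_one] at hzp
  exact (Fact.out : p.Prime).one_lt.ne hzp

end Cfsg.H1
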